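import Cfsg.Agent.JP.CCF0
import Cfsg.Agent.JP.CCE0

set_option autoImplicit false
set_option linter.all false
set_option maxRecDepth 100000

namespace Cfsg.Agent.JP.CC

open Cfsg.Agent.M24

theorem blk : ∀ j, j < 2 → ball chk 7 j = true
  | 0, _ => b0 | 1, _ => b1
  | n + 2, h => absurd h (by omega)

theorem all : ∀ id, chk id = true :=
  blocks (M := 192) (fun c h => chkF_of_le c h) 2 (by decide) blk

def cnt : ℕ → ℕ := fun d => [1, 1771, 276, 0].getD d 0

theorem live {X : Type*} [MulAction M24 X] {l : ℕ → X → X} (S : Sys O1 mcode Vl l) {p : ℕ → X}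
    (H : ∀ j < 192, FH mcode Vl l p (fa j)) :
    ∀ d < 4, (∃ e < d, ∃ σ : M24, p d = σ • p e) ∨ Live M24 VS l p 4 d (cnt d)
  | 0, _ => Or.inr (live_sound S H cov g0 (chkE_all (by decide) e0))
  | 1, _ => Or.inr (live_sound S H cov g1 (chkE_all (by decide) e1))
  | 2, _ => Or.inr (live_sound S H cov g2 (chkE_all (by decide) e2))
  | 3, _ => Or.inl (dead_sound (j := 183) H (by decide +kernel))
  | n + 4, h => absurd h (by omega)

theorem total : ∑ d ∈ Finset.range 4, cnt d = 2048 := by decide +kernel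

end Cfsg.Agent.JP.CC
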