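import Cfsg.Agent.JP.CDD

set_option autoImplicit false
set_option linter.all false
set_option maxRecDepth 100000

namespace Cfsg.Agent.JP.CD

open Cfsg.Agent.M24

theorem b12 : ball chk (nat_lit 7) (nat_lit 12) = true := by decide +kernel

theorem b13 : ball chk (nat_lit 7) (nat_lit 13) = true := by decide +kernel

theorem b14 : ball chk (nat_lit 7) (nat_lit 14) = true := by decide +kernel

theorem b15 : ball chk (nat_lit 7) (nat_lit 15) = true := by decide +kernel

theorem b16 : ball chk (nat_lit 7) (nat_lit 16) = true := by decide +kernel

theorem b17 : ball chk (nat_lit 7) (nat_lit 17) = true := by decide +kernel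

end Cfsg.Agent.JP.CD
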