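import Cfsg.Agent.JP.CDD

set_option autoImplicit false
set_option linter.all false
set_option maxRecDepth 100000

namespace Cfsg.Agent.JP.CD

open Cfsg.Agent.M24

theorem b24 : ball chk (nat_lit 7) (nat_lit 24) = true := by decide +kernel

theorem b25 : ball chk (nat_lit 7) (nat_lit 25) = true := by decide +kernel

theorem b26 : ball chk (nat_lit 7) (nat_lit 26) = true := by decide +kernel

theorem b27 : ball chk (nat_lit 7) (nat_lit 27) = true := by decide +kernel

theorem b28 : ball chk (nat_lit 7) (nat_lit 28) = true := by decide +kernel

theorem b29 : ball chk (nat_lit 7) (nat_lit 29) = true := by decide +kernel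

end Cfsg.Agent.JP.CD
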