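import Cfsg.Agent.JP.CDD

set_option autoImplicit false
set_option linter.all false
set_option maxRecDepth 100000

namespace Cfsg.Agent.JP.CD

open Cfsg.Agent.M24

theorem b30 : ball chk (nat_lit 7) (nat_lit 30) = true := by decide +kernel

theorem b31 : ball chk (nat_lit 7) (nat_lit 31) = true := by decide +kernel

theorem b32 : ball chk (nat_lit 7) (nat_lit 32) = true := by decide +kernel

end Cfsg.Agent.JP.CD
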