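import Cfsg.Agent.JP.CDF0
import Cfsg.Agent.JP.CDF1
import Cfsg.Agent.JP.CDF2
import Cfsg.Agent.JP.CDF3
import Cfsg.Agent.JP.CDF4
import Cfsg.Agent.JP.CDF5
import Cfsg.Agent.JP.CDE0
import Cfsg.Agent.JP.CDE1
import Cfsg.Agent.JP.CDE2
import Cfsg.Agent.JP.CDE3
import Cfsg.Agent.JP.CDE4

set_option autoImplicit false
set_option linter.all false
set_option maxRecDepth 100000

namespace Cfsg.Agent.JP.CD

open Cfsg.Agent.M24

theorem blk : ∀ j, j < 33 → ball chk 7 j = true
  | 0, _ => b0 | 1, _ => b1 | 2, _ => b2 | 3, _ => b3 | 4, _ => b4 | 5, _ => b5 | 6, _ => b6 | 7, _ => b7 | 8, _ => b8 | 9, _ => b9 | 10, _ => b10 | 11, _ => b11 | 12, _ => b12 | 13, _ => b13 | 14, _ => b14 | 15, _ => b15 | 16, _ => b16 | 17, _ => b17 | 18, _ => b18 | 19, _ => b19 | 20, _ => b20 | 21, _ => b21 | 22, _ => b22 | 23, _ => b23 | 24, _ => b24 | 25, _ => b25 | 26, _ => b26 | 27, _ => b27 | 28, _ => b28 | 29, _ => b29 | 30, _ => b30 | 31, _ => b31 | 32, _ => b32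
  | n + 33, h => absurd h (by omega)

theorem all : ∀ id, chk id = true :=
  blocks (M := 4106) (fun c h => chkF_of_le c h) 33 (by decide) blk

def cnt : ℕ → ℕ := fun d => [1, 3795, 318780, 5100480, 1912680, 1275120, 478170, 81607680, 212520, 7650720, 15301440, 12241152, 40803840, 2550240, 2550240, 53130, 26565, 11385, 1771, 967680].getD d 0

theorem live {X : Type*} [MulAction M24 X] {l : ℕ → X → X} (S : Sys O1 mcode Vl l) {p : ℕ → X}
    (H : ∀ j < 4106, FH mcode Vl l p (fa j)) :
    ∀ d < 20, (∃ e < d, ∃ σ : M24, p d = σ • p e) ∨ Live M24 VT l p 20 d (cnt d)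
  | 0, _ => Or.inr (live_sound S H cov g0 (chkE_all (by decide) e0))
  | 1, _ => Or.inr (live_sound S H cov g1 (chkE_all (by decide) e1))
  | 2, _ => Or.inr (live_sound S H cov g2 (chkE_all (by decide) e2))
  | 3, _ => Or.inr (live_sound S H cov g3 (chkE_all (by decide) e3))
  | 4, _ => Or.inr (live_sound S H cov g4 (chkE_all (by decide) e4))
  | 5, _ => Or.inr (live_sound S H cov g5 (chkE_all (by decide) e5))
  | 6, _ => Or.inr (live_sound S H cov g6 (chkE_all (by decide) e6))
  | 7, _ => Or.inr (live_sound S H cov g7 (chkE_all (by decide) e7))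
  | 8, _ => Or.inr (live_sound S H cov g8 (chkE_all (by decide) e8))
  | 9, _ => Or.inr (live_sound S H cov g9 (chkE_all (by decide) e9))
  | 10, _ => Or.inr (live_sound S H cov g10 (chkE_all (by decide) e10))
  | 11, _ => Or.inr (live_sound S H cov g11 (chkE_all (by decide) e11))
  | 12, _ => Or.inr (live_sound S H cov g12 (chkE_all (by decide) e12))
  | 13, _ => Or.inr (live_sound S H cov g13 (chkE_all (by decide) e13))
  | 14, _ => Or.inr (live_sound S H cov g14 (chkE_all (by decide) e14))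
  | 15, _ => Or.inr (live_sound S H cov g15 (chkE_all (by decide) e15))
  | 16, _ => Or.inr (live_sound S H cov g16 (chkE_all (by decide) e16))
  | 17, _ => Or.inr (live_sound S H cov g17 (chkE_all (by decide) e17))
  | 18, _ => Or.inr (live_sound S H cov g18 (chkE_all (by decide) e18))
  | 19, _ => Or.inr (live_sound S H cov g19 (chkE_all (by decide) e19))
  | n + 20, h => absurd h (by omega)

theorem total : ∑ d ∈ Finset.range 20, cnt d = 173067389 := by decide +kernel

end Cfsg.Agent.JP.CD
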