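import Cfsg.Agent.M24.Stabs

/-! # Certified double coset enumeration -/

set_option autoImplicit false

namespace Cfsg.Agent.JP

open Cfsg.Agent.M24 MulAction

/-- operations on codes -/
structure Ops where
  mul : ℕ → ℕ → ℕ
  inv : ℕ → ℕ
  one : ℕ
  al : ℕ → ℕ → ℕ
  vg : ℕ → Bool
  vl : ℕ → Bool

/-- a group acting on a set together with an equivariant family of involutory letters -/
structure Sys {Γ X : Type*} [Group Γ] [MulAction Γ X] (O : Ops) (code : Γ → ℕ) (Vl : ℕ → Prop)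
    (l : ℕ → X → X) : Prop where
  gc : GC code O.mul O.inv O.one
  vg : ∀ c, O.vg c = true → ∃ g, code g = c
  vl : ∀ k, O.vl k = true → Vl k
  nz : ∀ k, Vl k → k ≠ 0
  cl : ∀ g k, Vl k → Vl (O.al (code g) k)
  eqv : ∀ (g : Γ) k x, Vl k → g • l k x = l (O.al (code g) k) (g • x)
  sq : ∀ k x, Vl k → l k (l k x) = x

/-- letter or identity -/
def lz {X : Type*} (l : ℕ → X → X) (L : ℕ) (x : X) : X := if L = 0 then x else l L x

/-- a word, in order of application -/
def lw {X : Type*} (l : ℕ → X → X) : List ℕ → X → X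
  | [], x => x
  | a :: w, x => lw l w (l a x)

theorem lw_append {X : Type*} (l : ℕ → X → X) : ∀ (a b : List ℕ) (x : X),
    lw l (a ++ b) x = lw l b (lw l a x)
  | [], _, _ => rfl
  | i :: a, b, x => lw_append l a b (l i x)

/-- fields -/
def fD (a : ℕ) : ℕ := Nat.land a (nat_lit 255)
/-- fields -/
def fE (a : ℕ) : ℕ := Nat.land (Nat.shiftRight a (nat_lit 8)) (nat_lit 255)
/-- fields -/
def fL (a : ℕ) : ℕ := Nat.land (Nat.shiftRight a (nat_lit 16)) (nat_lit 281474976710655)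
/-- fields -/
def fS (a : ℕ) : ℕ := Nat.shiftRight a (nat_lit 64)

/-- consume a letter -/
noncomputable def eat (O : Ops) (L π : ℕ) (k : List ℕ → Bool) (ls : List ℕ) : Bool :=
  bif' (Nat.beq L (nat_lit 0)) (k ls)
    (List.rec (motive := fun _ => Bool) false (fun a ls' _ => band (Nat.beq (O.al π L) a) (k ls')) ls)

/-- follow a path -/
noncomputable def run (O : Ops) (fa : ℕ → ℕ) (id : ℕ) (cont : ℕ → ℕ → List ℕ → Bool) (n : ℕ) :
    ℕ → ℕ → ℕ → List ℕ → Bool :=
  Nat.rec (motive := fun _ => ℕ → ℕ → ℕ → List ℕ → Bool) (fun _ π d ls => cont π d ls)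
    (fun _ ih mv π d ls => force (Nat.land (Nat.shiftRight mv (nat_lit 1)) (nat_lit 8191)) fun j =>
      band (Nat.ble (Nat.succ j) id) (force (fa j) fun a => force (fS a) fun s =>
        force (Nat.shiftRight mv (nat_lit 14)) fun mv' => force (fL a) fun L =>
        bif' (Nat.beq (Nat.land mv (nat_lit 1)) (nat_lit 0))
          (band (Nat.beq d (fD a)) (eat O L π (fun ls' => force (O.mul π s) fun π' =>
            force (fE a) fun e => ih mv' π' e ls') ls))
          (band (Nat.beq d (fE a)) (force (O.inv s) fun si => force (O.mul π si) fun π' =>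
            eat O L π' (fun ls' => force (fD a) fun e => ih mv' π' e ls') ls)))) n

/-- relator lookup -/
noncomputable def rget (R : List (List ℕ × ℕ)) (k : List ℕ → ℕ → Bool) : ℕ → Bool :=
  List.rec (motive := fun _ => ℕ → Bool) (fun _ => false)
    (fun x _ ih i => Nat.rec (motive := fun _ => Bool) (k x.1 x.2) (fun j _ => ih j) i) R

theorem rget_sound {k : List ℕ → ℕ → Bool} : ∀ {R : List (List ℕ × ℕ)} {i : ℕ},
    rget R k i = true → ∃ x ∈ R, k x.1 x.2 = true
  | [], _, h => absurd h (by simp [rget])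
  | x :: _, 0, h => ⟨x, List.mem_cons_self, h⟩
  | _ :: R, j + 1, h => by
    obtain ⟨y, hy, e⟩ := rget_sound (R := R) (i := j) h
    exact ⟨y, List.mem_cons_of_mem _ hy, e⟩

/-- end of a path -/
noncomputable def fin (O : Ops) (a g r π e : ℕ) (ls : List ℕ) : Bool :=
  band (Nat.beq e (fE a)) (force (O.mul r g) fun rg => force (O.inv rg) fun ri =>
    band (Nat.beq (O.mul ri π) (fS a))
      (List.rec (motive := fun _ => Bool) (Nat.beq (fL a) (nat_lit 0)) (fun x ls' _ =>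
        List.rec (motive := fun _ => Bool) (Nat.beq (fL a) (O.al ri x)) (fun _ _ _ => false) ls') ls))

/-- check of a fact -/
noncomputable def chkF (O : Ops) (fa fb dt : ℕ → ℕ) (ax : ℕ → ℕ → Bool) (R : List (List ℕ × ℕ))
    (N id : ℕ) : Bool :=
  bor (Nat.ble N id) (force (fa id) fun a => force (fb id) fun b =>
    bif' (Nat.beq b (nat_lit 0))
      (band (band (Nat.beq (fD a) (nat_lit 0)) (Nat.beq (fE a) (nat_lit 0))) (ax (fL a) (fS a)))
      (bif' (Nat.beq b (nat_lit 1))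
        (band (band (Nat.ble (Nat.succ (fD a)) (fE a)) (Nat.beq (fS a) O.one))
          (band (force (fL a) O.vl) (Nat.beq (dt (fE a)) (Nat.add (fD a) (Nat.mul (nat_lit 256) (fL a))))))
        (force (Nat.land (Nat.shiftRight b (nat_lit 20))
            (nat_lit 0xffffffffffffffffffffffffffffffffffffffffffffffffffffffffffff)) fun g =>
          band (O.vg g) (rget R (fun ls r => force (fD a) fun d => force (Nat.shiftRight b (nat_lit 260))
            fun mv => run O fa id (fin O a g r) (Nat.land (Nat.shiftRight b (nat_lit 10)) (nat_lit 1023))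
              mv g d ls) (Nat.land (Nat.shiftRight b (nat_lit 2)) (nat_lit 255))))))

/-- rotation of a relator -/
noncomputable def rot (O : Ops) (x : List ℕ × ℕ) : List ℕ × ℕ :=
  (O.al (O.inv x.2) (x.1.getLastD 0) :: x.1.dropLast, x.2)
/-- inverse of a relator -/
noncomputable def rev (O : Ops) (x : List ℕ × ℕ) : List ℕ × ℕ := (x.1.reverse, O.inv x.2)

/-- equality test -/
def rbeq (x y : List ℕ × ℕ) : Bool := List.beq x.1 y.1 && Nat.beq x.2 y.2

theorem rbeq_sound {x y : List ℕ × ℕ} (h : rbeq x y = true) : x = y := by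
  simp only [rbeq, Bool.and_eq_true, Nat.beq_eq] at h
  have : (x.1 == y.1) = true := h.1
  exact Prod.ext (eq_of_beq this) h.2

/-- each relator comes from the earlier ones -/
noncomputable def rchk (O : Ops) : List (List ℕ × ℕ) → List (List ℕ × ℕ) → Bool
  | [], _ => true
  | x :: R, B => B.any (fun y => rbeq x y || rbeq x (rev O y) || (!y.1.isEmpty && rbeq x (rot O y))) &&
      rchk O R (x :: B)

section sound

variable {Γ X : Type*} [Group Γ] [MulAction Γ X] {O : Ops} {code : Γ → ℕ} {Vl : ℕ → Prop}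
  {l : ℕ → X → X}

/-- meaning of a fact -/
def FH (code : Γ → ℕ) (Vl : ℕ → Prop) (l : ℕ → X → X) (p : ℕ → X) (a : ℕ) : Prop :=
  ∃ σ : Γ, code σ = fS a ∧ (fL a ≠ 0 → Vl (fL a)) ∧ lz l (fL a) (p (fD a)) = σ • p (fE a)

/-- meaning of a relator -/
def RH (code : Γ → ℕ) (Vl : ℕ → Prop) (l : ℕ → X → X) (x : List ℕ × ℕ) : Prop :=
  ∃ ρ : Γ, code ρ = x.2 ∧ (∀ a ∈ x.1, Vl a) ∧ ∀ y, lw l x.1 y = ρ • y

theorem eat_sound (S : Sys O code Vl l) {L : ℕ} (hL : L ≠ 0 → Vl L) (π : Γ) {k : List ℕ → Bool}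
    {ls : List ℕ} (h : eat O L (code π) k ls = true) :
    ∃ ls', k ls' = true ∧ (∀ a ∈ ls', a ∈ ls) ∧ (∀ x, lw l ls (π • x) = lw l ls' (π • lz l L x)) ∧
      ∀ x, lw l ls (π • lz l L x) = lw l ls' (π • x) := by
  unfold eat at h
  rw [bif'_eq] at h
  split_ifs at h with c
  · have c' : L = 0 := Nat.eq_of_beq_eq_true c
    exact ⟨ls, h, fun _ h => h, fun x => by simp [lz, c'], fun x => by simp [lz, c']⟩
  · have c' : L ≠ 0 := fun e => c (by rw [e]; rfl)
    cases ls with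
    | nil => exact absurd h (by simp)
    | cons a ls' =>
      change band _ _ = true at h
      simp only [band_eq, Bool.and_eq_true, Nat.beq_eq] at h
      refine ⟨ls', h.2, fun _ h => List.mem_cons_of_mem _ h, fun x => ?_, fun x => ?_⟩
      · rw [lw, ← h.1, ← S.eqv _ _ _ (hL c'), lz, if_neg c']
      · rw [lw, ← h.1, ← S.eqv _ _ _ (hL c'), lz, if_neg c', S.sq _ _ (hL c')]

theorem run_sound (S : Sys O code Vl l) {p : ℕ → X} {fa : ℕ → ℕ} {id : ℕ}
    (H : ∀ j < id, FH code Vl l p (fa j)) {cont : ℕ → ℕ → List ℕ → Bool} :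
    ∀ (n : ℕ) {mv : ℕ} (π : Γ) {d : ℕ} {ls : List ℕ}, run O fa id cont n mv (code π) d ls = true →
      ∃ (π' : Γ) (d' : ℕ) (ls' : List ℕ), cont (code π') d' ls' = true ∧ (∀ a ∈ ls', a ∈ ls) ∧
        lw l ls (π • p d) = lw l ls' (π' • p d')
  | 0, _, π, d, ls, h => ⟨π, d, ls, h, fun _ h => h, rfl⟩
  | n + 1, mv, π, d, ls, h => by
    have h' : (force (Nat.land (Nat.shiftRight mv (nat_lit 1)) (nat_lit 8191)) fun j =>
      band (Nat.ble (Nat.succ j) id) (force (fa j) fun a => force (fS a) fun s =>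
        force (Nat.shiftRight mv (nat_lit 14)) fun mv' => force (fL a) fun L =>
        bif' (Nat.beq (Nat.land mv (nat_lit 1)) (nat_lit 0))
          (band (Nat.beq d (fD a)) (eat O L (code π) (fun ls' => force (O.mul (code π) s) fun π' =>
            force (fE a) fun e => run O fa id cont n mv' π' e ls') ls))
          (band (Nat.beq d (fE a)) (force (O.inv s) fun si => force (O.mul (code π) si) fun π' =>
            eat O L π' (fun ls' => force (fD a) fun e => run O fa id cont n mv' π' e ls') ls)))) =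
        true := h
    simp only [force_eq, band_eq, Bool.and_eq_true, Nat.ble_eq, bif'_eq] at h'
    obtain ⟨h1, h2⟩ := h'
    obtain ⟨σ, e1, e2, e3⟩ := H _ h1
    rw [← e1] at h2
    split_ifs at h2
    · simp only [Bool.and_eq_true, Nat.beq_eq] at h2
      obtain ⟨ls', a1, a2, a3, -⟩ := eat_sound S e2 π h2.2
      rw [← S.gc.code_mul] at a1
      obtain ⟨π', d', ls'', b1, b2, b3⟩ := run_sound S H n _ a1
      refine ⟨π', d', ls'', b1, fun a h => a2 a (b2 a h), ?_⟩
      rw [← b3, h2.1, a3, e3, mul_smul]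
    · simp only [Bool.and_eq_true, Nat.beq_eq] at h2
      rw [← S.gc.code_inv, ← S.gc.code_mul] at h2
      obtain ⟨ls', a1, a2, -, a3⟩ := eat_sound S e2 _ h2.2
      obtain ⟨π', d', ls'', b1, b2, b3⟩ := run_sound S H n _ a1
      refine ⟨π', d', ls'', b1, fun a h => a2 a (b2 a h), ?_⟩
      rw [← b3, h2.1, ← a3, e3, smul_smul, inv_mul_cancel_right]

/-- the points -/
noncomputable def pts (l : ℕ → X → X) (dt : ℕ → ℕ) (x0 : X) (e : ℕ) : X :=
  if _h : dt e % 256 < e then l (dt e / 256) (pts l dt x0 (dt e % 256)) else x0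

theorem pts_zero {dt : ℕ → ℕ} {x0 : X} : pts l dt x0 0 = x0 := by
  rw [pts, dif_neg (Nat.not_lt_zero _)]

theorem fD_lt (a : ℕ) : fD a < 256 := by
  show a &&& (2 ^ 8 - 1) < _
  rw [Nat.and_two_pow_sub_one_eq_mod]; omega

theorem facts_sound (S : Sys O code Vl l) {fa fb dt : ℕ → ℕ} {ax : ℕ → ℕ → Bool}
    {R : List (List ℕ × ℕ)} {N : ℕ} {x0 : X}
    (hax : ∀ L s, ax L s = true → ∃ σ : Γ, code σ = s ∧ (L ≠ 0 → Vl L) ∧ lz l L x0 = σ • x0)
    (hR : ∀ x ∈ R, RH code Vl l x) (h : ∀ id, chkF O fa fb dt ax R N id = true) :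
    ∀ j < N, FH code Vl l (pts l dt x0) (fa j) := by
  intro j
  induction j using Nat.strong_induction_on with
  | _ j ih =>
    intro hj
    have h1 := h j
    unfold chkF at h1
    simp only [force_eq, bor_eq, band_eq, bif'_eq, Bool.or_eq_true, Nat.ble_eq] at h1
    replace h1 := h1.resolve_left (by omega)
    split_ifs at h1
    · simp only [Bool.and_eq_true, Nat.beq_eq] at h1
      obtain ⟨⟨a1, a2⟩, a3⟩ := h1
      obtain ⟨σ, b1, b2, b3⟩ := hax _ _ a3
      refine ⟨σ, b1, b2, ?_⟩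
      rw [a1, a2]
      change lz l _ (pts l dt x0 0) = σ • pts l dt x0 0
      rw [pts_zero, b3]
    · simp only [Bool.and_eq_true, Nat.beq_eq, Nat.ble_eq] at h1
      obtain ⟨⟨a1, a2⟩, a3, a4⟩ := h1
      have v := S.vl _ a3
      refine ⟨1, S.gc.code_one.trans a2.symm, fun _ => v, ?_⟩
      have a4' : dt (fE (fa j)) = fD (fa j) + 256 * fL (fa j) := a4
      have := fD_lt (fa j)
      have e1 : dt (fE (fa j)) % 256 = fD (fa j) := by omega
      have e2 : dt (fE (fa j)) / 256 = fL (fa j) := by omega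
      rw [one_smul, lz, if_neg (S.nz _ v)]
      conv_rhs => rw [pts]
      rw [dif_pos (by rw [e1]; exact a1), e1, e2]
    · simp only [Bool.and_eq_true] at h1
      obtain ⟨g, eg⟩ := S.vg _ h1.1
      obtain ⟨x, hx, h2⟩ := rget_sound h1.2
      obtain ⟨ρ, r1, r2, r3⟩ := hR x hx
      rw [← eg] at h2
      obtain ⟨π, e, ls, b1, b2, b3⟩ := run_sound S (fun i hi => ih i hi (by omega)) _ g h2
      unfold fin at b1
      simp only [force_eq, band_eq, Bool.and_eq_true, Nat.beq_eq, ← r1, ← S.gc.code_mul,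
        ← S.gc.code_inv] at b1
      obtain ⟨c1, c2, c3⟩ := b1
      rw [r3, smul_smul, c1] at b3
      rcases ls with _ | ⟨a, _ | _⟩
      · have c4 : fL (fa j) = 0 := Nat.eq_of_beq_eq_true c3
        refine ⟨_, c2, fun h => absurd c4 h, ?_⟩
        rw [lz, if_pos c4, mul_smul, eq_inv_smul_iff]
        exact b3
      · have c4 : fL (fa j) = O.al (code (ρ * g)⁻¹) a := Nat.eq_of_beq_eq_true c3
        have va := r2 a (b2 a List.mem_cons_self)
        have v : Vl (fL (fa j)) := c4 ▸ S.cl _ _ va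
        refine ⟨_, c2, fun _ => v, ?_⟩
        rw [lz, if_neg (S.nz _ v), c4, mul_smul]
        have b4 : (ρ * g) • pts l dt x0 (fD (fa j)) = l a (π • pts l dt x0 (fE (fa j))) := b3
        rw [← S.sq a (π • _) va, ← b4, S.eqv _ _ _ va, inv_smul_smul]
      · exact absurd c3 (by simp)

theorem lw_rev (S : Sys O code Vl l) : ∀ {w : List ℕ}, (∀ a ∈ w, Vl a) → ∀ x,
    lw l w.reverse (lw l w x) = x
  | [], _, _ => rfl
  | a :: w, h, x => by
    rw [List.reverse_cons, lw_append]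
    show l a (lw l w.reverse (lw l w (l a x))) = x
    rw [lw_rev S (fun b hb => h b (List.mem_cons_of_mem _ hb))]
    exact S.sq _ _ (h a List.mem_cons_self)

theorem RH.rev (S : Sys O code Vl l) {x : List ℕ × ℕ} (h : RH code Vl l x) :
    RH code Vl l (rev O x) := by
  obtain ⟨ρ, r1, r2, r3⟩ := h
  refine ⟨ρ⁻¹, by rw [S.gc.code_inv, r1]; rfl, fun a ha => r2 a (List.mem_reverse.1 ha), fun y => ?_⟩
  have := lw_rev S r2 (ρ⁻¹ • y)
  rwa [r3, smul_inv_smul] at this

theorem RH.rot (S : Sys O code Vl l) {x : List ℕ × ℕ} (h : RH code Vl l x) (hx : x.1 ≠ []) :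
    RH code Vl l (rot O x) := by
  obtain ⟨ρ, r1, r2, r3⟩ := h
  obtain ⟨w, r⟩ := x
  obtain ⟨w, a, rfl⟩ : ∃ u a, w = u ++ [a] := ⟨w.dropLast, w.getLast hx, (List.dropLast_append_getLast hx).symm⟩
  have va : Vl a := r2 a (by simp)
  dsimp only at r1 r2 r3
  refine ⟨ρ, r1, ?_, fun y => ?_⟩
  · intro b hb
    simp only [JP.rot, List.getLastD_concat, List.dropLast_concat, List.mem_cons, ← r1,
      ← S.gc.code_inv] at hb
    rcases hb with rfl | hb
    · exact S.cl _ _ va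
    · exact r2 b (by simp [hb])
  · simp only [JP.rot, List.getLastD_concat, List.dropLast_concat, ← r1, ← S.gc.code_inv, lw]
    have h1 := r3 (l (O.al (code ρ⁻¹) a) y)
    rw [lw_append] at h1
    have h2 : l a (lw l w (l (O.al (code ρ⁻¹) a) y)) = ρ • l (O.al (code ρ⁻¹) a) y := h1
    have h3 := S.eqv ρ⁻¹ a (ρ • y) va
    rw [inv_smul_smul] at h3
    rw [← S.sq a (lw _ _ _) va, h2, ← h3, smul_inv_smul, S.sq _ _ va]

theorem rchk_sound (S : Sys O code Vl l) : ∀ {R B : List (List ℕ × ℕ)}, rchk O R B = true →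
    (∀ x ∈ B, RH code Vl l x) → ∀ x ∈ R, RH code Vl l x
  | [], _, _, _ => by simp
  | x :: R, B, h, hB => by
    simp only [rchk, Bool.and_eq_true, List.any_eq_true, Bool.or_eq_true] at h
    obtain ⟨⟨y, hy, h1⟩, h2⟩ := h
    have hx : RH code Vl l x := by
      rcases h1 with (h1 | h1) | ⟨h0, h1⟩ <;> rw [rbeq_sound h1]
      · exact hB y hy
      · exact (hB y hy).rev S
      · exact (hB y hy).rot S (by simpa using h0)
    have := rchk_sound S h2 (by
      intro z hz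
      rcases List.mem_cons.1 hz with rfl | hz
      · exact hx
      · exact hB z hz)
    intro z hz
    rcases List.mem_cons.1 hz with rfl | hz
    · exact hx
    · exact this z hz

theorem RH.nil (S : Sys O code Vl l) : RH code Vl l ([], O.one) :=
  ⟨1, S.gc.code_one, by simp, fun y => by simp [lw]⟩

theorem RH.sq (S : Sys O code Vl l) {k : ℕ} (h : Vl k) : RH code Vl l ([k, k], O.one) :=
  ⟨1, S.gc.code_one, by simpa using h, fun y => by simpa [lw] using S.sq k y h⟩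

/-- a word leads back to the first double coset -/
noncomputable def wchk (O : Ops) (fa : ℕ → ℕ) (N n mv : ℕ) (ls : List ℕ) (f : ℕ → Bool) : Bool :=
  run O fa N (fun π d ls' => band (band (Nat.beq d (nat_lit 0)) ls'.isEmpty) (f π)) n mv O.one
    (nat_lit 0) ls

theorem wchk_sound (S : Sys O code Vl l) {fa dt : ℕ → ℕ} {N n mv : ℕ} {x0 : X}
    (H : ∀ j < N, FH code Vl l (pts l dt x0) (fa j)) {ls : List ℕ} {f : ℕ → Bool}
    (h : wchk O fa N n mv ls f = true) : ∃ π : Γ, f (code π) = true ∧ lw l ls x0 = π • x0 := by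
  unfold wchk at h
  rw [← S.gc.code_one] at h
  obtain ⟨π, d, ls', a1, -, a3⟩ := run_sound S H n 1 h
  simp only [band_eq, Bool.and_eq_true, Nat.beq_eq, List.isEmpty_iff] at a1
  obtain ⟨⟨rfl, rfl⟩, a2⟩ := a1
  refine ⟨π, a2, ?_⟩
  change lw l ls (1 • pts l dt x0 0) = π • pts l dt x0 0 at a3
  rwa [pts_zero, one_smul] at a3

/-! ### closure -/

/-- check of an entry of the forest at `d` -/
noncomputable def chkE (O : Ops) (fa : ℕ → ℕ) (N nd d : ℕ) (gens : List ℕ) (ms fo : ℕ → ℕ)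
    (M r : ℕ) : Bool :=
  bor (Nat.ble M r) (force (fo r) fun x => force (Nat.land x (nat_lit 255)) fun dep =>
    bif' (Nat.beq dep (nat_lit 0))
      (force (Nat.shiftRight x (nat_lit 9)) fun j => band (Nat.ble (Nat.succ j) N) (force (fa j) fun a =>
        force (fL a) fun L => band (Nat.ble (nat_lit 1) L)
        (bif' (Nat.beq (Nat.land x (nat_lit 256)) (nat_lit 0))
          (band (band (Nat.beq (fD a) d) (Nat.ble (Nat.succ (fE a)) nd)) (Nat.beq L (ms r)))
          (band (band (Nat.beq (fE a) d) (Nat.ble (Nat.succ (fD a)) nd))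
            (force (force (fS a) O.inv) fun si => Nat.beq (O.al si L) (ms r))))))
      (force (Nat.shiftRight x (nat_lit 12)) fun r' => band (band (Nat.ble (Nat.succ r') M)
        (Nat.ble (Nat.succ (Nat.land (fo r') (nat_lit 255))) dep))
        (force (ms r') fun k => lnth gens (fun s => Nat.beq (O.al s k) (ms r))
          (Nat.land (Nat.shiftRight x (nat_lit 8)) (nat_lit 15)))))

/-- the generators are proved to fix the point -/
noncomputable def chkG (fa : ℕ → ℕ) (N d : ℕ) (gens ids : List ℕ) : Bool :=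
  lall2 gens (fun s j => band (Nat.ble (Nat.succ j) N) (Nat.beq (fa j)
    (Nat.add (Nat.add d (Nat.mul (nat_lit 256) d)) (Nat.shiftLeft s (nat_lit 64))))) ids

theorem fields {d s : ℕ} (hd : d < 256) : fD (d + 256 * d + s <<< 64) = d ∧
    fE (d + 256 * d + s <<< 64) = d ∧ fL (d + 256 * d + s <<< 64) = 0 ∧
    fS (d + 256 * d + s <<< 64) = s := by
  rw [Nat.shiftLeft_eq]
  refine ⟨?_, ?_, ?_, ?_⟩
  · show _ &&& (2 ^ 8 - 1) = _
    rw [Nat.and_two_pow_sub_one_eq_mod]; omega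
  · show (_ >>> 8) &&& (2 ^ 8 - 1) = _
    rw [Nat.and_two_pow_sub_one_eq_mod, Nat.shiftRight_eq_div_pow,
      show (d + 256 * d + s * 2 ^ 64) / 2 ^ 8 = d + s * 2 ^ 56 by omega]; omega
  · show (_ >>> 16) &&& (2 ^ 48 - 1) = _
    rw [Nat.and_two_pow_sub_one_eq_mod, Nat.shiftRight_eq_div_pow,
      show (d + 256 * d + s * 2 ^ 64) / 2 ^ 16 = s * 2 ^ 48 by omega]; omega
  · show (_ >>> 64) = _
    rw [Nat.shiftRight_eq_div_pow]; omega

theorem chkG_sound (S : Sys O code Vl l) {p : ℕ → X} {fa : ℕ → ℕ} {N d : ℕ} (hd : d < 256)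
    (H : ∀ j < N, FH code Vl l p (fa j)) {gens ids : List ℕ} (h : chkG fa N d gens ids = true) :
    ∀ s ∈ gens, ∃ σ : Γ, code σ = s ∧ σ • p d = p d := by
  intro s hs
  obtain ⟨j, hj⟩ := lall2_sound h s hs
  simp only [band_eq, Bool.and_eq_true, Nat.ble_eq, Nat.beq_eq] at hj
  obtain ⟨σ, e1, -, e3⟩ := H j hj.1
  have e : fa j = d + 256 * d + s <<< 64 := hj.2
  obtain ⟨f1, f2, f3, f4⟩ := fields (s := s) hd
  rw [e] at e1 e3
  rw [f1, f2, f3] at e3
  exact ⟨σ, e1.trans f4, e3.symm⟩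

theorem forest_sound (S : Sys O code Vl l) {p : ℕ → X} {fa : ℕ → ℕ} {N nd d : ℕ}
    (H : ∀ j < N, FH code Vl l p (fa j)) {gens : List ℕ}
    (hg : ∀ s ∈ gens, ∃ σ : Γ, code σ = s ∧ σ • p d = p d) {ms fo : ℕ → ℕ} {M : ℕ}
    (h : ∀ r, chkE O fa N nd d gens ms fo M r = true) :
    ∀ r < M, Vl (ms r) ∧ ∃ e < nd, ∃ σ : Γ, l (ms r) (p d) = σ • p e := by
  suffices key : ∀ n, ∀ r < M, Nat.land (fo r) 255 = n →
      Vl (ms r) ∧ ∃ e < nd, ∃ σ : Γ, l (ms r) (p d) = σ • p e from fun r hr => key _ r hr rfl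
  intro n
  induction n using Nat.strong_induction_on with
  | _ n ih =>
    intro r hr hn
    have h1 := h r
    unfold chkE at h1
    simp only [force_eq, bor_eq, band_eq, bif'_eq, Bool.or_eq_true, Nat.ble_eq] at h1
    replace h1 := h1.resolve_left (by omega)
    split_ifs at h1 with c1 c2
    · simp only [Bool.and_eq_true, Nat.beq_eq, Nat.ble_eq] at h1
      obtain ⟨a1, a2, ⟨a3, a4⟩, a5⟩ := h1
      obtain ⟨σ, e1, e2, e3⟩ := H _ a1
      have a2' : fL (fa (Nat.shiftRight (fo r) (nat_lit 9))) ≠ 0 := Nat.pos_iff_ne_zero.1 a2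
      rw [lz, if_neg a2', a3, a5] at e3
      exact ⟨a5 ▸ e2 a2', _, a4, σ, e3⟩
    · simp only [Bool.and_eq_true, Nat.beq_eq, Nat.ble_eq] at h1
      obtain ⟨a1, a2, ⟨a3, a4⟩, a5⟩ := h1
      obtain ⟨σ, e1, e2, e3⟩ := H _ a1
      have a2' : fL (fa (Nat.shiftRight (fo r) (nat_lit 9))) ≠ 0 := Nat.pos_iff_ne_zero.1 a2
      rw [lz, if_neg a2', a3] at e3
      rw [← e1, ← S.gc.code_inv] at a5
      refine ⟨a5 ▸ S.cl _ _ (e2 a2'), _, a4, σ⁻¹, ?_⟩
      have := S.eqv σ⁻¹ _ (σ • p d) (e2 a2')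
      rw [inv_smul_smul, a5, ← e3, S.sq _ _ (e2 a2')] at this
      exact this.symm
    · simp only [Bool.and_eq_true, Nat.beq_eq, Nat.ble_eq] at h1
      obtain ⟨⟨a1, a2⟩, a3⟩ := h1
      obtain ⟨s, hs, a4⟩ := lnth_sound a3
      obtain ⟨v, e, he, σ, b⟩ := ih _ (hn ▸ a2) _ a1 rfl
      obtain ⟨γ, rfl, g2⟩ := hg s hs
      have a5 := Nat.eq_of_beq_eq_true a4
      refine ⟨a5 ▸ S.cl _ _ v, e, he, γ * σ, ?_⟩
      rw [mul_smul, ← b, S.eqv _ _ _ v, a5, g2]

/-- a finished double coset -/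
def Live (Γ : Type*) [Group Γ] [MulAction Γ X] (Tl : ℕ → Prop) (l : ℕ → X → X) (p : ℕ → X)
    (nd d n : ℕ) : Prop :=
  (∀ k, Tl k → ∃ e < nd, ∃ σ : Γ, l k (p d) = σ • p e) ∧ (orbit Γ (p d)).ncard ≤ n

theorem closed [Finite Γ] (S : Sys O code Vl l) {Tl : ℕ → Prop} (hT : ∀ k, Tl k → Vl k)
    (hc : ∀ g k, Tl k → Tl (O.al (code g) k)) {p : ℕ → X} {nd : ℕ} {cnt : ℕ → ℕ} (h0 : 0 < nd)
    (h : ∀ d < nd, (∃ e < d, ∃ σ : Γ, p d = σ • p e) ∨ Live Γ Tl l p nd d (cnt d)) :
    ∃ Y : Set X, Y.Finite ∧ Y.ncard ≤ ∑ d ∈ Finset.range nd, cnt d ∧ p 0 ∈ Y ∧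
      (∀ g : Γ, ∀ x ∈ Y, g • x ∈ Y) ∧ ∀ k, Tl k → ∀ x ∈ Y, l k x ∈ Y := by
  classical
  let A := (Finset.range nd).filter fun d => Live Γ Tl l p nd d (cnt d)
  have hf : ∀ d, (orbit Γ (p d)).Finite := fun d => Set.finite_range _
  let Y := A.biUnion fun d => (hf d).toFinset
  have hY : ∀ x, x ∈ Y ↔ ∃ d < nd, Live Γ Tl l p nd d (cnt d) ∧ ∃ g : Γ, g • p d = x := by
    intro x
    simp only [Y, A, Finset.mem_biUnion, Finset.mem_filter, Finset.mem_range, Set.Finite.mem_toFinset,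
      and_assoc]
    rfl
  have h1 : ∀ g : Γ, ∀ x ∈ Y, g • x ∈ Y := by
    intro g x hx
    obtain ⟨d, a, b, g', rfl⟩ := (hY x).1 hx
    exact (hY _).2 ⟨d, a, b, g * g', mul_smul _ _ _⟩
  have h2 : ∀ d, d < nd → p d ∈ Y := by
    intro d
    induction d using Nat.strong_induction_on with
    | _ d ih =>
      intro hd
      rcases h d hd with ⟨e, he, σ, c⟩ | c
      · rw [c]; exact h1 _ _ (ih e he (by omega))
      · exact (hY _).2 ⟨d, hd, c, 1, one_smul _ _⟩
  refine ⟨Y, Y.finite_toSet, ?_, h2 0 h0, h1, fun k hk x hx => ?_⟩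
  · rw [Set.ncard_coe_finset]
    refine Finset.card_biUnion_le.trans ((Finset.sum_le_sum fun d hd => ?_).trans
      (Finset.sum_le_sum_of_subset (f := cnt) (Finset.filter_subset _ _)))
    rw [← Set.ncard_eq_toFinset_card _ (hf d)]
    exact (Finset.mem_filter.1 hd).2.2
  · obtain ⟨d, a, b, g, rfl⟩ := (hY x).1 hx
    obtain ⟨e, he, σ, c⟩ := b.1 _ (hc g⁻¹ k hk)
    have := S.eqv g⁻¹ k (g • p d) (hT k hk)
    rw [inv_smul_smul, c, inv_smul_eq_iff] at this
    rw [this]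
    exact h1 _ _ (h1 _ _ (h2 e he))

theorem dead_sound {p : ℕ → X} {fa : ℕ → ℕ} {N d j : ℕ} (H : ∀ j < N, FH code Vl l p (fa j))
    (h : (Nat.blt j N && Nat.beq (fD (fa j)) d && Nat.blt (fE (fa j)) d && Nat.beq (fL (fa j)) 0) = true) :
    ∃ e < d, ∃ σ : Γ, p d = σ • p e := by
  simp only [Bool.and_eq_true, Nat.blt_eq, Nat.beq_eq] at h
  obtain ⟨⟨⟨a1, a2⟩, a3⟩, a4⟩ := h
  obtain ⟨σ, -, -, e⟩ := H j a1
  rw [a4, a2] at e
  exact ⟨_, a3, σ, e⟩

end sound

theorem live_sound {X : Type*} [MulAction M24 X] {O : Ops} {Vl Tl : ℕ → Prop} {l : ℕ → X → X}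
    (S : Sys O mcode Vl l) {p : ℕ → X} {fa : ℕ → ℕ} {N nd d n : ℕ}
    (H : ∀ j < N, FH mcode Vl l p (fa j)) {ms fo : ℕ → ℕ} {M : ℕ}
    (cov : ∀ k, Tl k → ∃ r < M, ms r = k) {Ls : List Lvl} {ids : List ℕ}
    (h1 : band (band (chkM Ls) (chkG fa N d (gensOf Ls) ids))
      (band (Nat.blt d 256) (Nat.beq (chainSize Ls * n) 244823040)) = true)
    (h : ∀ r, chkE O fa N nd d (gensOf Ls) ms fo M r = true) : Live M24 Tl l p nd d n := by
  simp only [band_eq, Bool.and_eq_true, Nat.blt_eq, Nat.beq_eq] at h1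
  obtain ⟨⟨a1, a2⟩, a3, a4⟩ := h1
  have hg := chkG_sound S a3 H a2
  refine ⟨fun k hk => ?_, ?_⟩
  · obtain ⟨r, hr, rfl⟩ := cov k hk
    exact (forest_sound S H hg h r hr).2
  · have hle : gen mcode (gensOf Ls) ≤ stabilizer M24 (p d) := gen_le fun g hg' => by
      obtain ⟨σ, e1, e2⟩ := hg _ hg'
      rw [← gcM.inj e1]; exact e2
    have h2 := Subgroup.card_le_of_le hle
    rw [(chkM_sound a1).2.2.1] at h2
    have e1 := (stabilizer M24 (p d)).index_mul_card
    rw [index_stabilizer, card_M24, ← a4] at e1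
    have hpos : 0 < chainSize Ls := Nat.pos_of_ne_zero fun e => by rw [e] at a4; omega
    by_contra hh
    have : chainSize Ls * n < (orbit M24 (p d)).ncard * Nat.card (stabilizer M24 (p d)) := by
      calc chainSize Ls * n < chainSize Ls * (orbit M24 (p d)).ncard :=
            Nat.mul_lt_mul_of_pos_left (by omega) hpos
        _ ≤ _ := by rw [mul_comm]; exact Nat.mul_le_mul_left _ h2
    omega

end Cfsg.Agent.JP
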