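import Cfsg.Agent.JP.Ma
import Cfsg.Agent.JP.Mb
import Cfsg.Agent.JP.Mc
import Cfsg.Agent.M24.Stabs

/-! # A presentation of `M24` on two generators -/

set_option autoImplicit false
set_option maxRecDepth 100000

namespace Cfsg.Agent.JP

open Cfsg.Agent.M24 Cfsg.Agent.TC Subgroup
open scoped Pointwise

/-- the seven relators -/
structure R7 {D : Type*} [Group D] (x y : D) : Prop where
  r1 : x ^ 2 = 1
  r2 : y ^ 3 = 1
  r3 : (x * y) ^ 23 = 1
  r4 : (x⁻¹ * y⁻¹ * x * y) ^ 12 = 1
  r5 : (x⁻¹ * (y * x * y)⁻¹ * x * (y * x * y)) ^ 5 = 1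
  r6 : (x * y * ((x * y * x * (y⁻¹)) ^ 3)) ^ 4 = 1
  r7 : ((x * y * x * y * x * (y⁻¹)) ^ 3) * ((x * y * x * (y⁻¹) * x * (y⁻¹)) ^ 3) = 1

section words
variable {D : Type*} [Group D]

/-- forward product -/
def fw (u : ℕ → D) (w : List ℕ) : D := (w.map u).prod

theorem evl_inv (u : ℕ → D) : ∀ w : List ℕ, evl (fun i => (u i)⁻¹) w = (fw u w)⁻¹
  | [] => by simp [evl, fw]
  | i :: w => by rw [evl, evl_inv u w]; simp [fw]

theorem fw_append (u : ℕ → D) (a b : List ℕ) : fw u (a ++ b) = fw u a * fw u b := by simp [fw]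

theorem fw_pww (u : ℕ → D) (a : List ℕ) : ∀ n, fw u (pww a n) = fw u a ^ n
  | 0 => by simp [pww, fw]
  | n + 1 => by rw [pww, fw_append, fw_pww u a n, pow_succ']

theorem fw_flat (u u' : ℕ → D) (s : ℕ → List ℕ) : ∀ w : List ℕ, (∀ i ∈ w, fw u (s i) = u' i) →
    fw u (w.flatMap s) = fw u' w
  | [], _ => by simp [fw]
  | i :: w, h => by
    rw [List.flatMap_cons, fw_append, h i List.mem_cons_self,
      fw_flat u u' s w fun j hj => h j (List.mem_cons_of_mem _ hj)]
    simp [fw]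

theorem fw_invw {u : ℕ → D} {iv : ℕ → ℕ} : ∀ {w : List ℕ}, (∀ i ∈ w, u (iv i) = (u i)⁻¹) →
    fw u (invw iv w) = (fw u w)⁻¹
  | [], _ => by simp [invw, fw]
  | i :: w, h => by
    have ih := fw_invw (w := w) fun j hj => h j (List.mem_cons_of_mem _ hj)
    unfold invw at ih ⊢
    rw [List.map_cons, List.reverse_cons, fw_append, ih]
    simp [fw, h i List.mem_cons_self]

theorem fw_map {D' : Type*} [Group D'] (f : D →* D') (u : ℕ → D) (w : List ℕ) :
    f (fw u w) = fw (fun i => f (u i)) w := by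
  simp [fw, map_list_prod, Function.comp_def]

/-- letters -/
def u5 (x y s : D) (i : ℕ) : D :=
  if i = 0 then x else if i = 1 then y else if i = 2 then y⁻¹ else if i = 3 then s else s⁻¹

/-- base relators as words -/
def b6 : List (List ℕ) := [pww [1] 3, pww [0, 1, 0, 1, 0, 2] 3 ++ pww [0, 1, 0, 2, 0, 2] 3,
  pww [0, 1, 0, 1, 0, 2, 0, 2] 5, pww [0, 1] 23, pww [0, 1, 0, 2] 12,
  pww ([0, 1] ++ pww [0, 1, 0, 2] 3) 4]

theorem R7.xi {x y : D} (h : R7 x y) : x⁻¹ = x := inv_eq_of_mul_eq_one_left (by rw [← sq, h.r1])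

theorem R7.aabb {x y : D} (h : R7 x y) : (x * y * x * y * x * y⁻¹ * x * y⁻¹) ^ 5 = 1 := by
  have := h.r5
  rw [mul_inv_rev, mul_inv_rev, h.xi] at this
  have e := pow_swap (a := x * y⁻¹ * x * y⁻¹) (b := x * y * x * y) (n := 5)
    (by rw [← this]; congr 1; simp [mul_assoc])
  rw [← e]; congr 1; simp [mul_assoc]

theorem R7.base {x y : D} (h : R7 x y) (s : D) : ∀ l ∈ b6, (∀ i ∈ l, i < 5) ∧
    evl (fun i => (u5 x y s i)⁻¹) l = 1 := by
  intro l hl
  refine ⟨ltAll_sound (k := 5) (ws := b6) (by decide) l hl, ?_⟩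
  rw [evl_inv, inv_eq_one]
  simp only [b6, List.mem_cons, List.not_mem_nil, or_false] at hl
  rcases hl with rfl | rfl | rfl | rfl | rfl | rfl
  · rw [fw_pww]; simpa [fw, u5] using h.r2
  · rw [fw_append, fw_pww, fw_pww, ← h.r7]; simp [fw, u5, mul_assoc]
  · rw [fw_pww, ← h.aabb]; simp [fw, u5, mul_assoc]
  · rw [fw_pww, ← h.r3]; simp [fw, u5]
  · have := h.r4
    rw [h.xi] at this
    have e := pow_swap (a := x * y⁻¹) (b := x * y) (n := 12) (by rw [← this]; simp [mul_assoc])
    rw [fw_pww, ← e]; simp [fw, u5, mul_assoc]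
  · rw [fw_pww, fw_append, fw_pww, ← h.r6]; simp [fw, u5, mul_assoc]

theorem R7.iv5 {x y : D} (h : R7 x y) (s : D) : ∀ i < 5, lget [0, 2, 1, 4, 3] 0 i < 5 ∧
    u5 x y s (lget [0, 2, 1, 4, 3] 0 i) = (u5 x y s i)⁻¹ := by
  intro i hi
  interval_cases i <;> simp [lget_eq_getD, u5, h.xi]

theorem R7.iv5' {x y : D} (h : R7 x y) (s : D) : ∀ i < 5, lget [0, 2, 1, 4, 3] 0 i < 5 ∧
    (u5 x y s (lget [0, 2, 1, 4, 3] 0 i))⁻¹ * (u5 x y s i)⁻¹ = 1 := fun i hi =>
  ⟨(h.iv5 s i hi).1, by rw [(h.iv5 s i hi).2]; simp⟩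

/-- the second generator of the subgroup -/
def qq (x y : D) : D := x * y * x * y * x * y⁻¹ * x

/-- letters of the subgroup -/
def u4 (x y : D) (i : ℕ) : D :=
  if i = 0 then y else if i = 1 then y⁻¹ else if i = 2 then qq x y else (qq x y)⁻¹

/-- substitution -/
def sb (i : ℕ) : List ℕ :=
  if i = 0 then [1] else if i = 1 then [2] else if i = 2 then [0, 1, 0, 1, 0, 2, 0] else
    [0, 1, 0, 2, 0, 2, 0]

theorem R7.sb_ok {x y : D} (h : R7 x y) (s : D) (i : ℕ) : fw (u5 x y s) (sb i) = u4 x y i := by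
  unfold sb u4
  split_ifs <;> simp [fw, u5, qq, mul_assoc, h.xi]

theorem R7.conj_mem {x y : D} (h : R7 x y) {g w t : List ℕ} (hg : ∀ i ∈ g, i < 5)
    (c : PCert 5 J4b.iv J4b.base 8 t) (e : t = g ++ w.flatMap sb ++ invw J4b.iv g) :
    fw (u5 x y (x * y)) g * fw (u4 x y) w * (fw (u5 x y (x * y)) g)⁻¹ ∈ zpowers (x * y) := by
  have := c.mem (fun i => (u5 x y (x * y) i)⁻¹) (zpowers (x * y)) (h.iv5' _) (by
    intro l hl
    have : J4b.base = b6 ++ [[0, 1, 4]] := by decide
    rw [this, List.mem_append] at hl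
    rcases hl with hl | hl
    · exact h.base _ l hl
    · obtain rfl : l = [0, 1, 4] := by simpa using hl
      exact ⟨by decide, by simp [evl, u5]⟩) (by
    intro i hi hs
    interval_cases i <;> simp [Nat.testBit] at hs
    exact inv_mem (mem_zpowers (x * y)))
  rw [evl_inv, inv_mem_iff, e, fw_append, fw_append, fw_flat _ (u4 x y) _ _ fun i _ => h.sb_ok _ i,
    fw_invw (iv := J4b.iv) fun i hi => (h.iv5 _ i (hg i hi)).2] at this
  exact this

theorem R7.card_le {x y : D} (h : R7 x y) (h1 : fw (u4 x y) (pww [1, 3, 0, 3, 1, 3, 0, 2] 2) = 1)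
    (h2 : fw (u4 x y) (pww [1, 3, 0, 3, 1, 2, 0, 3] 2) = 1) :
    Finite (closure {x, y} : Subgroup D) ∧ Nat.card (closure {x, y} : Subgroup D) ≤ 244823040 := by
  have hy : IsOfFinOrder y := isOfFinOrder_iff_pow_eq_one.2 ⟨3, by decide, h.r2⟩
  haveI : Finite (zpowers y) := hy.finite_zpowers
  have c3 : Nat.card (zpowers y) ≤ 3 := by
    rw [Nat.card_zpowers]; exact orderOf_le_of_pow_eq_one (by decide) h.r2
  obtain ⟨a, b⟩ := J4c.cert.card_le (fun i => (u4 x y i)⁻¹) (zpowers y) (by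
    intro i hi
    interval_cases i <;> simp [J4c.iv, lget_eq_getD, u4]) (by
    intro l hl
    have : J4c.base = [pww [0] 3, pww [2] 3, pww [1, 2] 5, pww [1, 3, 0, 3, 1, 3, 0, 2] 2,
      pww [1, 3, 0, 3, 1, 2, 0, 3] 2] := by decide
    refine ⟨ltAll_sound (k := 4) (ws := J4c.base) (by decide) l hl, ?_⟩
    rw [evl_inv, inv_eq_one]
    simp only [this, List.mem_cons, List.not_mem_nil, or_false] at hl
    rcases hl with rfl | rfl | rfl | rfl | rfl
    · rw [fw_pww]; simpa [fw, u4] using h.r2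
    · have e : qq x y = (x * y * x) * y * (x * y * x)⁻¹ := by simp [qq, mul_assoc, h.xi]
      rw [fw_pww, show fw (u4 x y) [2] = qq x y by simp [fw, u4], e, conj_pow, h.r2]; simp
    · have e := pow_swap (a := x * y * x * y * x * y⁻¹ * x) (b := y⁻¹) (n := 5) h.aabb
      rw [fw_pww, ← e]; simp [fw, u4, qq]
    · exact h1
    · exact h2) (by
    intro i hi hs
    interval_cases i <;> simp [Nat.testBit] at hs
    simp [u4])
  set K := closure ((fun i => (u4 x y i)⁻¹) '' {i | i < 4})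
  obtain ⟨c, d⟩ := J4a.cert.card_le (fun i => (u5 x y (qq x y) i)⁻¹) K (h.iv5' _) (by
    intro l hl
    have : J4a.base = b6 ++ [[0, 1, 0, 1, 0, 2, 0, 4]] := by decide
    rw [this, List.mem_append] at hl
    rcases hl with hl | hl
    · exact h.base _ l hl
    · obtain rfl : l = [0, 1, 0, 1, 0, 2, 0, 4] := by simpa using hl
      exact ⟨by decide, by rw [evl_inv]; simp [fw, u5, qq, mul_assoc]⟩) (by
    intro i hi hs
    interval_cases i <;> simp [Nat.testBit] at hs
    · exact subset_closure ⟨0, by decide, by simp [u4, u5]⟩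
    · exact subset_closure ⟨2, by decide, by simp [u4, u5]⟩)
  have hle : (closure {x, y} : Subgroup D) ≤
      closure ((fun i => (u5 x y (qq x y) i)⁻¹) '' {i | i < 5}) := by
    rw [closure_le]
    rintro _ (rfl | rfl)
    · exact subset_closure ⟨0, by decide, by simp [u5, h.xi]⟩
    · exact subset_closure ⟨2, by decide, by simp [u5]⟩
  refine ⟨Finite.of_injective _ (inclusion_injective hle), (card_le_of_le hle).trans (d.trans ?_)⟩
  calc 42504 * Nat.card K ≤ 42504 * (1920 * 3) := by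
        refine Nat.mul_le_mul_left _ (b.trans (Nat.mul_le_mul_left _ c3))
    _ = _ := by norm_num

end words

/-- code of the first generator -/
def cx : ℕ := nat_lit 255811904145399256886852087513011443
/-- code of the second generator -/
def cy : ℕ := nat_lit 3304397873930431504094024617282866
/-- first generator -/
noncomputable def x0 : M24 := elt cx
/-- second generator -/
noncomputable def y0 : M24 := elt cy

theorem code_x0 : mcode x0 = cx := mcode_elt (by decide +kernel)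
theorem code_y0 : mcode y0 = cy := mcode_elt (by decide +kernel)

theorem gen_pair {a b : M24} : gen mcode [mcode a, mcode b] = closure {a, b} := by
  unfold gen
  congr 1
  ext g
  simp [gcM.inj.eq_iff]

theorem closure_xy : closure {x0, y0} = ⊤ := by
  have hv : Valid mcode [cx, cy] := valid_mcode (by decide +kernel)
  have := (gcM.words_sound (l := gM) (ws := [nat_lit 2906962324512349228764602040384299191135521579214183824173239818950372359866451009,
    nat_lit 113071809152376779143065004442285474480494711810151103262274868567639105]) hv (by decide +kernel)).2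
  rw [gen_gM, ← code_x0, ← code_y0, gen_pair] at this
  exact top_le_iff.1 this

theorem u5_rel {ws : List (List ℕ)} (h : relsOk mul one (lget [inv cx, inv cy, cy] one) 3 ws = true)
    (s : M24) : ∀ w ∈ ws, fw (u5 x0 y0 s) w = 1 := by
  intro w hw
  have := (relsOk_sound gcM (u := fun i => (u5 x0 y0 s i)⁻¹) (by
    intro i hi
    interval_cases i <;> simp [u5, lget_eq_getD, gcM.code_inv, code_x0, code_y0]) h w hw).2
  rwa [evl_inv, inv_eq_one] at this

theorem r7_0 : R7 x0 y0 := by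
  have h := u5_rel (ws := [pww [0] 2, pww [1] 3, pww [0, 1] 23, pww [0, 2, 0, 1] 12,
    pww [0, 2, 0, 2, 0, 1, 0, 1] 5, pww ([0, 1] ++ pww [0, 1, 0, 2] 3) 4,
    pww [0, 1, 0, 1, 0, 2] 3 ++ pww [0, 1, 0, 2, 0, 2] 3]) (by decide +kernel) 1
  simp only [List.mem_cons, List.not_mem_nil, or_false, forall_eq_or_imp, forall_eq, fw_pww,
    fw_append] at h
  obtain ⟨h1, h2, h3, h4, h5, h6, h7⟩ := h
  have e1 : x0 ^ 2 = 1 := by simpa [fw, u5] using h1
  have xi : x0⁻¹ = x0 := inv_eq_of_mul_eq_one_left (by rw [← sq, e1])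
  refine ⟨e1, by simpa [fw, u5] using h2, by simpa [fw, u5] using h3, ?_, ?_, ?_, ?_⟩
  · rw [← h4, xi]; simp [fw, u5, mul_assoc]
  · rw [← h5, mul_inv_rev, mul_inv_rev, xi]; simp [fw, u5, mul_assoc]
  · rw [← h6]; simp [fw, u5, mul_assoc]
  · rw [← h7]; simp [fw, u5, mul_assoc]

theorem order_xy : orderOf (x0 * y0) = 23 := by
  haveI : Fact (Nat.Prime 23) := ⟨by norm_num⟩
  refine orderOf_eq_prime r7_0.r3 fun e => ?_
  have := congrArg mcode e
  rw [gcM.code_mul, code_x0, code_y0, gcM.code_one] at this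
  revert this; decide +kernel

theorem R7.prod {D D' : Type*} [Group D] [Group D'] {x y : D} {x' y' : D'} (h : R7 x y)
    (h' : R7 x' y') : R7 (x, x') (y, y') :=
  ⟨Prod.ext h.r1 h'.r1, Prod.ext h.r2 h'.r2, Prod.ext h.r3 h'.r3, Prod.ext h.r4 h'.r4,
    Prod.ext h.r5 h'.r5, Prod.ext h.r6 h'.r6, Prod.ext h.r7 h'.r7⟩

theorem R7.exists_hom {D : Type*} [Group D] {x y : D} (h : R7 x y) :
    ∃ κ : M24 →* D, κ x0 = x ∧ κ y0 = y := by
  have hp := h.prod r7_0
  have key : ∀ {g w t : List ℕ}, (∀ i ∈ g, i < 5) → PCert 5 J4b.iv J4b.base 8 t →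
      t = g ++ w.flatMap sb ++ invw J4b.iv g →
      relsOk mul one (lget [inv cx, inv cy, cy] one) 3 [w.flatMap sb] = true →
      fw (u4 (x, x0) (y, y0)) w = 1 := by
    intro g w t hg c e hr
    obtain ⟨k, hk⟩ := hp.conj_mem hg c e
    have h1 : (MonoidHom.snd D M24) (fw (u4 (x, x0) (y, y0)) w) = 1 := by
      rw [← fw_flat (u5 (x, x0) (y, y0) 1) _ sb w fun i _ => hp.sb_ok _ i, fw_map,
        ← u5_rel hr 1 _ List.mem_cons_self]
      congr 1; ext1 i; unfold u5; split_ifs <;> rfl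
    have h2 := congrArg (MonoidHom.snd D M24) hk
    simp only [map_mul, map_inv, h1, map_zpow, mul_one, mul_inv_cancel] at h2
    have h3 : ((23 : ℕ) : ℤ) ∣ k := by rw [← order_xy]; exact orderOf_dvd_iff_zpow_eq_one.2 h2
    obtain ⟨m, rfl⟩ := h3
    simp only [zpow_mul, zpow_natCast, hp.r3, one_zpow] at hk
    have := hk.symm
    rw [mul_inv_eq_one, mul_eq_left] at this
    exact this
  obtain ⟨a, b⟩ := hp.card_le
    (key (g := [1, 0, 1, 0, 1, 0, 1, 0, 1, 0, 1, 0, 1, 1, 0, 1, 0, 1, 1, 0, 1]) (by decide) J4b.cert0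
      (by decide +kernel) (by decide +kernel))
    (key (g := [1, 0, 1, 1, 0, 1, 0, 1, 0, 1, 1, 0, 1, 1, 0, 1, 0, 1, 1, 0, 1, 0, 1, 0, 1, 0, 1, 1, 0,
      1, 0]) (by decide) J4b.cert1 (by decide +kernel) (by decide +kernel))
  set P : Subgroup (D × M24) := closure {(x, x0), (y, y0)}
  let f : P →* M24 := (MonoidHom.snd D M24).comp P.subtype
  have hs : Function.Surjective f := by
    rw [← MonoidHom.range_eq_top, eq_top_iff, ← closure_xy, closure_le]
    rintro _ (rfl | rfl)
    · exact ⟨⟨(x, x0), subset_closure (by simp)⟩, rfl⟩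
    · exact ⟨⟨(y, y0), subset_closure (by simp)⟩, rfl⟩
  have hb : Function.Bijective f := (Nat.bijective_iff_surjective_and_card f).2
    ⟨hs, le_antisymm (card_M24 ▸ b) (Nat.card_le_card_of_surjective f hs)⟩
  let e := MulEquiv.ofBijective f hb
  refine ⟨((MonoidHom.fst D M24).comp P.subtype).comp e.symm.toMonoidHom, ?_, ?_⟩
  · have : e.symm x0 = ⟨(x, x0), subset_closure (by simp)⟩ := e.symm_apply_eq.2 rfl
    simp [this]
  · have : e.symm y0 = ⟨(y, y0), subset_closure (by simp)⟩ := e.symm_apply_eq.2 rfl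
    simp [this]

/-- the second generator of the trio group -/
def cc {D : Type*} [Group D] (x y : D) : D := y * x * y * ((x * (y⁻¹)) ^ 2) * ((x * y) ^ 3)

theorem code_cc : mcode (cc x0 y0) = nat_lit 726378160778241893654624985574179959 := by
  simp only [cc, pow_succ, pow_zero, gcM.code_mul, gcM.code_inv, gcM.code_one, code_x0, code_y0]
  decide +kernel

theorem stab_le : MulAction.stabilizer M24 T0 ≤ closure {x0, cc x0 y0} := by
  have hv : Valid mcode [cx, nat_lit 726378160778241893654624985574179959] :=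
    valid_mcode (by decide +kernel)
  have := (gcM.words_sound (l := gensOf cT) (ws := [nat_lit 2678627481602386091219604084951074,
    nat_lit 81125611176629416521478210625]) hv (by decide +kernel)).2
  rwa [← stab_T0, ← code_x0, ← code_cc, gen_pair] at this

theorem x0_stab : x0 • T0 = T0 :=
  (acT.smul_eq_iff x0 T0_mem T0_mem).2 (by rw [code_x0, tkey_T0]; decide +kernel)

theorem cc_stab : cc x0 y0 • T0 = T0 :=
  (acT.smul_eq_iff _ T0_mem T0_mem).2 (by rw [code_cc, tkey_T0]; decide +kernel)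

end Cfsg.Agent.JP
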