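import Cfsg.Agent.JP.MaD

set_option autoImplicit false
set_option linter.all false
set_option maxRecDepth 100000

namespace Cfsg.Agent.TC.J4a

open Cfsg.Agent.M24

theorem b15 : ball chk (nat_lit 11) (nat_lit 15) = true := by decide +kernel

theorem b16 : ball chk (nat_lit 11) (nat_lit 16) = true := by decide +kernel

theorem b17 : ball chk (nat_lit 11) (nat_lit 17) = true := by decide +kernel

theorem b18 : ball chk (nat_lit 11) (nat_lit 18) = true := by decide +kernel

end Cfsg.Agent.TC.J4a
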