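import Cfsg.Agent.JP.MaC0
import Cfsg.Agent.JP.MaC1
import Cfsg.Agent.JP.MaC2
import Cfsg.Agent.JP.MaC3
import Cfsg.Agent.JP.MaC4

set_option autoImplicit false
set_option linter.all false
set_option maxRecDepth 100000

namespace Cfsg.Agent.TC.J4a

open Cfsg.Agent.M24

theorem rel_ok : relChk rel (allW iv 5 base) 2 = true := by decide +kernel

theorem len_ok : 2 + (allW iv 5 base).length = 21 := by decide +kernel

theorem live_ok : bsum (fun c => b2n (live row 5 44127 c)) 16 0 = 42504 := by decide +kernel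

theorem blk : ∀ j, j < 22 → ball chk 11 j = true
  | 0, _ => b0 | 1, _ => b1 | 2, _ => b2 | 3, _ => b3 | 4, _ => b4 | 5, _ => b5 | 6, _ => b6 | 7, _ => b7 | 8, _ => b8 | 9, _ => b9 | 10, _ => b10 | 11, _ => b11 | 12, _ => b12 | 13, _ => b13 | 14, _ => b14 | 15, _ => b15 | 16, _ => b16 | 17, _ => b17 | 18, _ => b18 | 19, _ => b19 | 20, _ => b20 | 21, _ => b21
  | n + 22, h => absurd h (by omega)

theorem cert : Cert 5 iv base 10 42504 :=
  ⟨⟨row, rel, 44127, 3, by decide, by decide, rel_ok, by decide +kernel,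
    len_ok ▸ rows_of_blocks (f := chk) (M := 44127) (fun c h => chkRow_of_le c h) 22 (by decide) blk,
    live_card (by decide) live_ok⟩⟩

end Cfsg.Agent.TC.J4a
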