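import Cfsg.Agent.JP.MaD

set_option autoImplicit false
set_option linter.all false
set_option maxRecDepth 100000

namespace Cfsg.Agent.TC.J4a

open Cfsg.Agent.M24

theorem b0 : ball chk (nat_lit 11) (nat_lit 0) = true := by decide +kernel

theorem b1 : ball chk (nat_lit 11) (nat_lit 1) = true := by decide +kernel

theorem b2 : ball chk (nat_lit 11) (nat_lit 2) = true := by decide +kernel

theorem b3 : ball chk (nat_lit 11) (nat_lit 3) = true := by decide +kernel

theorem b4 : ball chk (nat_lit 11) (nat_lit 4) = true := by decide +kernel

theorem b5 : ball chk (nat_lit 11) (nat_lit 5) = true := by decide +kernel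

end Cfsg.Agent.TC.J4a
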