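import Cfsg.Agent.JP.CA
import Cfsg.Agent.JP.CB
import Cfsg.Agent.JP.CC
import Cfsg.Agent.JP.CD
import Cfsg.Agent.JP.CE
import Cfsg.Prelude.Def_Spor_J4

/-! # An upper bound for the order of the presented group -/

set_option autoImplicit false
set_option maxRecDepth 100000

namespace Cfsg.Agent.JP

open Cfsg.Agent.M24 MulAction Subgroup
open scoped Pointwise

variable {P : Type*} [Group P] {κ : M24 →* P} {t z : P}

/-- first relator -/
def r1w : List ℕ := [215784325952521, 141378178976450, 167268124396226]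
/-- second relator -/
def r2w : List ℕ := [219146429672784, 143212179398400, 178956273200464, 143212179398400]
/-- word for the sextet letter -/
def zw : List ℕ := [158905320348096, 184721292548392, 143212179398400]
/-- three sextets -/
def lnw : List ℕ := [3891, 658, 3489]
/-- mixed relator -/
def rLw : List ℕ := [143212179398400, 202, 143212179398400, 202]
/-- right side of the second relator -/
noncomputable def ρ2 : M24 := elt 610959678574542961153154757956799665
/-- right side of the mixed relator -/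
noncomputable def ρL : M24 := elt 965128854020860192151391391390468128

theorem code_ρ2 : mcode ρ2 = 610959678574542961153154757956799665 := mcode_elt (by decide +kernel)
theorem code_ρL : mcode ρL = 965128854020860192151391391390468128 := mcode_elt (by decide +kernel)

theorem pw_append (a b : List ℕ) : pw κ t z (a ++ b) = pw κ t z b * pw κ t z a := by
  induction a with
  | nil => simp [pw]
  | cons i a ih => simp [pw, ih, mul_assoc]

theorem pw_z {z' : P} : ∀ {w : List ℕ}, (∀ k ∈ w, 4096 ≤ k) → pw κ t z w = pw κ t z' w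
  | [], _ => rfl
  | a :: w, h => by
    rw [pw, pw, pw_z fun k hk => h k (List.mem_cons_of_mem _ hk), lt_z (h a List.mem_cons_self)]

theorem TZ.pw_conj (h : TZ κ t z) (g : M24) : ∀ {w : List ℕ}, (∀ k ∈ w, Vl k) →
    κ g * pw κ t z w * (κ g)⁻¹ = pw κ t z (w.map (al (mcode g)))
  | [], _ => by simp [pw]
  | a :: w, hw => by
    rw [List.map_cons, pw, pw, ← h.pw_conj g fun k hk => hw k (List.mem_cons_of_mem _ hk),
      ← h.conj g (hw a List.mem_cons_self)]
    group

theorem TZ.pw_conj' (h : TZ κ t z) {g : M24} {c : ℕ} (hc : mcode g = c) {w w' : List ℕ}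
    (hw : band (lall w vl) (List.beq (w.map (al c)) w') = true) :
    κ g * pw κ t z w * (κ g)⁻¹ = pw κ t z w' := by
  simp only [band_eq, Bool.and_eq_true, lall_iff] at hw
  have e : (w.map (al c) == w') = true := hw.2
  rw [h.pw_conj g fun k hk => vl_sound (hw.1 k hk), hc, eq_of_beq e]

theorem TZ.pw_rev (h : TZ κ t z) : ∀ {w : List ℕ}, (∀ k ∈ w, Vl k) →
    pw κ t z w.reverse = (pw κ t z w)⁻¹
  | [], _ => by simp [pw]
  | a :: w, hw => by
    rw [List.reverse_cons, pw_append, h.pw_rev fun k hk => hw k (List.mem_cons_of_mem _ hk)]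
    simp only [pw, one_mul, mul_inv_rev]
    rw [inv_eq_of_mul_eq_one_left (h.sq (hw a List.mem_cons_self))]

theorem TZ.ltc (h : TZ κ t z) {g : M24} {c k k' : ℕ} (hc : mcode g = c)
    (hw : band (vl k) (Nat.beq (al c k) k') = true) :
    κ g * lt κ t z k * (κ g)⁻¹ = lt κ t z k' := by
  simp only [band_eq, Bool.and_eq_true, Nat.beq_eq] at hw
  rw [h.conj g (vl_sound hw.1), hc, hw.2]

theorem vl_all {w : List ℕ} (h : lall w vl = true) : ∀ k ∈ w, Vl k :=
  fun k hk => vl_sound ((lall_iff _ _).1 h k hk)

/-- the symmetric relations -/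
structure JR (κ : M24 →* P) (t : P) : Prop where
  t2 : t * t = 1
  tc : ∀ g ∈ stabilizer M24 T0, Commute (κ g) t
  r1 : pw κ t 1 r1w = 1
  r2 : pw κ t 1 r2w = κ ρ2

theorem tz1 (t2 : t * t = 1) (tc : ∀ g ∈ stabilizer M24 T0, Commute (κ g) t) : TZ κ t 1 :=
  ⟨t2, tc, mul_one _, fun _ _ => Commute.one_right _⟩

theorem pr1 : pr (mcode 1) one = nat_lit 0xbdab49ca307b9ac5a928398a418820bdab49ca307b9ac5a928398a418820 := by
  rw [gcM.code_one]; decide +kernel

theorem JR.tz (h : JR κ t) : TZ κ t (pw κ t 1 zw) := by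
  have h1 := tz1 h.t2 h.tc
  have hB : letI := act2 κ; ∀ x ∈ CA.B, RH code2 Vl (fun k (x : P) => lt κ t 1 k • x) x := by
    intro x hx
    simp only [CA.B, List.mem_cons, List.not_mem_nil, or_false] at hx
    rcases hx with rfl | rfl
    · exact rh2 pr1 (by decide +kernel) (h.r1.trans (map_one κ).symm)
    · exact rh2 (by rw [code_ρ2]; decide +kernel) (by decide +kernel) h.r2
  have hv : ∀ k ∈ zw, Vl k := vl_all (by decide +kernel)
  refine ⟨h.t2, h.tc, ?_, ?_⟩
  · have := CA.cert2.sound h1 gcM.code_one hB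
    rwa [map_one, show ([158905320348096, 184721292548392, 143212179398400, 158905320348096,
      184721292548392, 143212179398400] : List ℕ) = zw ++ zw from rfl, pw_append] at this
  · have key : ∀ {g : M24} {c : ℕ} {w : List ℕ}, mcode g = c →
        band (lall zw vl) (List.beq (zw.map (al c)) w) = true →
        Cert2 CA.B (zw.reverse ++ w) one → Commute (κ g) (pw κ t 1 zw) := by
      intro g c w hc hw C
      have := C.sound h1 gcM.code_one hB
      rw [map_one, pw_append, h1.pw_rev hv, ← h1.pw_conj' hc hw, mul_inv_eq_one,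
        mul_inv_eq_iff_eq_mul] at this
      exact this
    rw [stab_S0]
    have : gen mcode (gensOf cS) ≤ (centralizer {pw κ t 1 zw}).comap κ := gen_le fun g hg => by
      rw [mem_comap, mem_centralizer_singleton_iff]
      have hg' : mcode g ∈ [nat_lit 0x6542403a87826651b6d1b89467c90b,
        nat_lit 0x9c0b27240d584947b10a88c56b9ea6] := hg
      simp only [List.mem_cons, List.not_mem_nil, or_false] at hg'
      rcases hg' with e | e
      · exact key e (w := [143212181751488, 145243027719720, 184721293483776]) (by decide +kernel)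
          CA.cert0
      · exact key e (w := [212343570220584, 158905320227048, 184721293483776]) (by decide +kernel)
          CA.cert1
    intro g hg
    exact mem_centralizer_singleton_iff.1 (this hg)

theorem TZ.rz (h : TZ κ t z) (e : pw κ t z zw = z) : pw κ t z (zw ++ [3489]) = 1 := by
  rw [pw_append, e]; simp [pw, h.lt_S0, h.z2]

theorem JR.card_le (h : JR κ t) : Finite (closure (Set.range κ ∪ {t})) ∧
    Nat.card (closure (Set.range κ ∪ {t})) ≤ 86775571046077562880 := by
  have h1 := h.tz
  set z := pw κ t 1 zw with hz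
  have r1 : pw κ t z r1w = κ 1 := (pw_z (by decide)).trans (h.r1.trans (map_one κ).symm)
  have r2 : pw κ t z r2w = κ ρ2 := (pw_z (by decide)).trans h.r2
  have rz : pw κ t z (zw ++ [3489]) = κ 1 := (h1.rz (pw_z (by decide))).trans (map_one κ).symm
  have rl : pw κ t z lnw = κ 1 := CB.cert0.sound h1 gcM.code_one (by
    intro x hx
    simp only [CB.B, List.mem_cons, List.not_mem_nil, or_false] at hx
    rcases hx with rfl | rfl | rfl
    · exact rh2 pr1 (by decide +kernel) r1
    · exact rh2 (by rw [code_ρ2]; decide +kernel) (by decide +kernel) r2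
    · exact rh2 pr1 (by decide +kernel) rz)
  haveI : Finite M24 := Nat.finite_of_card_ne_zero (by rw [card_M24]; decide)
  haveI : Finite κ.range := Finite.of_surjective _ κ.rangeRestrict_surjective
  have cK : Nat.card κ.range ≤ 244823040 :=
    card_M24 ▸ Nat.card_le_card_of_surjective _ κ.rangeRestrict_surjective
  have hH : Finite (closure (Set.range κ ∪ {z})) ∧
      Nat.card (closure (Set.range κ ∪ {z})) ≤ 2048 * Nat.card κ.range := by
    letI := MulAction.compHom (P ⧸ κ.range) κ
    have S := h1.sys1 (P ⧸ κ.range)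
    have H := facts1 h1 (H := κ.range) (fun g => ⟨g, rfl⟩) (Or.inl rfl) CC.r_ok CC.all (by
      intro x hx
      simp only [CC.B, List.mem_cons, List.not_mem_nil, or_false] at hx
      subst hx
      exact rh1 gcM.code_one (by decide +kernel) rl)
    obtain ⟨Y, a1, a2, a3, a4, a5⟩ := closed S (Tl := VS) (fun _ h => Or.inr h) (fun g _ h => h.al g)
      (by decide) (CC.live S H)
    rw [CC.total] at a2
    rw [pts_zero] at a3
    refine card_bound le_rfl a1 a2 a3 ?_
    rintro _ (⟨g, rfl⟩ | rfl) x hx
    · exact a4 g x hx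
    · have := a5 _ vs0 x hx
      rwa [h1.lt_S0] at this
  obtain ⟨b1, b2⟩ := hH
  set H := closure (Set.range κ ∪ {z})
  letI := MulAction.compHom (P ⧸ H) κ
  have S := h1.sys1 (P ⧸ H)
  have H' := facts1 h1 (H := H) (fun g => subset_closure (Or.inl ⟨g, rfl⟩))
    (Or.inr ⟨rfl, subset_closure (Or.inr rfl)⟩) CD.r_ok CD.all (by
    intro x hx
    simp only [CD.B, List.mem_cons, List.not_mem_nil, or_false] at hx
    rcases hx with rfl | rfl | rfl | rfl
    · exact rh1 gcM.code_one (by decide +kernel) r1
    · exact rh1 code_ρ2 (by decide +kernel) r2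
    · exact rh1 gcM.code_one (by decide +kernel) rz
    · exact rh1 gcM.code_one (by decide +kernel) rl)
  obtain ⟨Y, a1, a2, a3, a4, a5⟩ := closed S (Tl := VT) (fun _ h => Or.inl h) (fun g _ h => h.al g)
    (by decide) (CD.live S H')
  rw [CD.total] at a2
  rw [pts_zero] at a3
  obtain ⟨c1, c2⟩ := card_bound (L := closure (Set.range κ ∪ {t})) le_rfl a1 a2 a3 (by
    rintro _ (⟨g, rfl⟩ | rfl) x hx
    · exact a4 g x hx
    · have := a5 _ vt0 x hx
      rwa [h1.lt_T0] at this)
  refine ⟨c1, c2.trans ?_⟩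
  calc 173067389 * Nat.card H ≤ 173067389 * (2048 * 244823040) :=
        Nat.mul_le_mul_left _ (b2.trans (Nat.mul_le_mul_left _ cK))
    _ = _ := by norm_num

/-- The second relation follows from relations inside two local subgroups. -/
theorem TZ.jr (h : TZ κ t z) (r1 : pw κ t z r1w = 1) (rz : pw κ t z zw = z)
    (rl : pw κ t z lnw = 1) (rL : pw κ t z rLw = κ ρL) : JR κ t := by
  refine ⟨h.t2, h.tc, (pw_z (by decide)).trans r1, (pw_z (z' := z) (by decide)).trans ?_⟩
  refine CE.cert0.sound h code_ρ2 ?_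
  intro x hx
  simp only [CE.B, List.mem_cons, List.not_mem_nil, or_false] at hx
  rcases hx with rfl | rfl | rfl | rfl
  · exact rh2 pr1 (by decide +kernel) (r1.trans (map_one κ).symm)
  · exact rh2 pr1 (by decide +kernel) ((h.rz rz).trans (map_one κ).symm)
  · exact rh2 pr1 (by decide +kernel) (rl.trans (map_one κ).symm)
  · exact rh2 (by rw [code_ρL]; decide +kernel) (by decide +kernel) rL

/-! ### the ordinary presentation -/

/-- words -/
def g1 {D : Type*} [Group D] (x y : D) : D := y * x * (y⁻¹) * x * y * x * (y⁻¹) * x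
/-- words -/
def g2 {D : Type*} [Group D] (x y : D) : D := ((x * y) ^ 3) * y * ((x * y) ^ 6) * y
/-- words -/
def g3 {D : Type*} [Group D] (x y : D) : D := (y * x * y * x * y * x * y) ^ 3

theorem code_g1 : mcode (g1 x0 y0)⁻¹ = 215781134998099581999167987762083922 := by
  simp only [g1, gcM.code_mul, gcM.code_inv, code_x0, code_y0]
  decide +kernel

theorem code_g2 : mcode (g2 x0 y0)⁻¹ = 65484775221247348088509181491580137 := by
  simp only [g2, pow_succ, pow_zero, gcM.code_mul, gcM.code_inv, gcM.code_one, code_x0, code_y0]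
  decide +kernel

theorem code_g3 : mcode (g3 x0 y0) = 99024249910077873691497759307970565 := by
  simp only [g3, pow_succ, pow_zero, gcM.code_mul, gcM.code_inv, gcM.code_one, code_x0, code_y0]
  decide +kernel

theorem TZ.rel11 (h : TZ κ t z) :
    (κ y0 * ((g1 (κ x0) (κ y0))⁻¹ * t * g1 (κ x0) (κ y0))) ^ 3 = pw κ t z r1w := by
  have e : g1 (κ x0) (κ y0) = κ (g1 x0 y0) := by simp [g1]
  have a1 := h.ltc code_g1 (k := 143212179398400) (k' := 215784325952521) (by decide +kernel)
  have a2 := h.ltc code_y0 (k := 215784325952521) (k' := 167268124396226) (by decide +kernel)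
  have a3 := h.ltc code_y0 (k := 167268124396226) (k' := 141378178976450) (by decide +kernel)
  have y3 : κ y0 * κ y0 * κ y0 = 1 := by
    rw [← map_mul, ← map_mul, ← pow_two, ← pow_succ, r7_0.r2, map_one]
  rw [h.lt_T0, map_inv, inv_inv] at a1
  simp only [r1w, pw]
  rw [e, a1, ← a3, ← a2]
  have : (κ y0)⁻¹ = κ y0 * κ y0 := inv_eq_of_mul_eq_one_left y3
  generalize lt κ t z 215784325952521 = a
  calc (κ y0 * a) ^ 3 = κ y0 * a * κ y0 * a * κ y0 * a := by simp [pow_succ, mul_assoc]
    _ = κ y0 * a * ((κ y0)⁻¹ * κ y0) * κ y0 * a * ((κ y0)⁻¹ * (κ y0)⁻¹) * a := by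
      have : (κ y0)⁻¹ * (κ y0)⁻¹ = κ y0 := by
        rw [← mul_inv_rev]; exact inv_eq_of_mul_eq_one_right y3
      rw [this]; simp [mul_assoc]
    _ = _ := by simp [mul_assoc]

theorem TZ.rel12 (h : TZ κ t z) :
    (g3 (κ x0) (κ y0) * t * ((g2 (κ x0) (κ y0))⁻¹ * t * g2 (κ x0) (κ y0))) ^ 2 =
      pw κ t z r2w * (κ ρ2)⁻¹ := by
  have e2 : g2 (κ x0) (κ y0) = κ (g2 x0 y0) := by simp [g2]
  have e3 : g3 (κ x0) (κ y0) = κ (g3 x0 y0) := by simp [g3]
  have e4 : ρ2⁻¹ = g3 x0 y0 * g3 x0 y0 := gcM.inj (by
    rw [gcM.code_inv, gcM.code_mul, code_ρ2, code_g3]; decide +kernel)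
  have a1 := h.ltc code_g2 (k := 143212179398400) (k' := 219146429672784) (by decide +kernel)
  have a2 := h.ltc code_g3 (k := 143212179398400) (k' := 143212179398400) (by decide +kernel)
  have a3 := h.ltc code_g3 (k := 219146429672784) (k' := 178956273200464) (by decide +kernel)
  have a4 := h.ltc code_g3 (k := 178956273200464) (k' := 219146429672784) (by decide +kernel)
  rw [h.lt_T0, map_inv, inv_inv] at a1
  rw [h.lt_T0] at a2
  simp only [r2w, pw, h.lt_T0]
  rw [e2, e3, a1, ← map_inv, e4, map_mul]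
  generalize κ (g3 x0 y0) = p at a2 a3 a4
  generalize lt κ t z 219146429672784 = b at a3 a4
  generalize lt κ t z 178956273200464 = c at a3 a4
  subst a3
  have a5 : p * t = t * p := mul_inv_eq_iff_eq_mul.1 a2
  have a6 : b * p * p = p * p * b := by
    conv_lhs => rw [← a4]
    group
  have a7 : p * p * t = t * p * p := by rw [mul_assoc, a5, ← mul_assoc, a5]
  calc (p * t * b) ^ 2 = (p * t) * b * p⁻¹ * (p * p * t) * b := by simp [pow_succ, mul_assoc]
    _ = t * p * b * p⁻¹ * t * (p * p * b) := by rw [a5, a7]; simp [mul_assoc]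
    _ = _ := by rw [← a6]; simp [mul_assoc]

theorem cm {D : Type*} [Group D] {a b : D} : a⁻¹ * b⁻¹ * a * b = 1 ↔ Commute b a := by
  rw [mul_assoc, mul_assoc, inv_mul_eq_one, eq_inv_mul_iff_mul_eq]
  exact Iff.rfl

open Cfsg.Spor in
theorem iso_of {G : Type*} [Group G] {κ : M24 →* G} {t : G} (h : JR κ t)
    (hg : closure (Set.range κ ∪ {t}) = ⊤) (hc : Nat.card G = 86775571046077562880) : IsoJ4 G := by
  let X : J4 := PresentedGroup.of J4.Gen.x
  let Y : J4 := PresentedGroup.of J4.Gen.y
  let U : J4 := PresentedGroup.of J4.Gen.t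
  obtain ⟨o, ho, hr⟩ : ∃ o : J4.Gen → J4, o = TC.cxo J4.edges J4.extra ∧
      ∀ r ∈ J4.extra, FreeGroup.lift o r = 1 := ⟨_, rfl, fun r => TC.cox_extra⟩
  simp only [J4.extra, List.mem_cons, List.not_mem_nil, or_false, forall_eq_or_imp, forall_eq,
    map_mul, map_pow, map_inv, FreeGroup.lift_apply_of] at hr
  obtain ⟨a1, a2, a3, a4, a5, a6, a7, a8, a9, a10, a11, a12⟩ := hr
  subst ho
  obtain ⟨μ, m1, m2⟩ := R7.exists_hom (x := X) (y := Y) ⟨a1, a2, a3, a4, a5, a6, a7⟩
  have u2 : U * U = 1 := by rw [← sq]; exact a8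
  have uc : ∀ g ∈ stabilizer M24 T0, Commute (μ g) U := by
    have : closure {x0, cc x0 y0} ≤ (centralizer {U}).comap μ := by
      rw [closure_le]
      rintro _ (rfl | rfl)
      · exact mem_centralizer_singleton_iff.2 (m1 ▸ cm.1 a10)
      · refine mem_centralizer_singleton_iff.2 ?_
        have e : μ (cc x0 y0) = cc X Y := by simp [cc, m1, m2]
        exact e ▸ cm.1 a9
    intro g hg
    exact mem_centralizer_singleton_iff.1 (this (stab_le hg))
  have j : JR μ U := by
    have T := tz1 u2 uc
    refine ⟨u2, uc, ?_, ?_⟩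
    · rw [← T.rel11, m1, m2]; exact a11
    · rw [← mul_inv_eq_one, ← T.rel12, m1, m2]; exact a12
  have top : closure (Set.range μ ∪ {U}) = ⊤ := by
    rw [eq_top_iff, ← TC.cox_top, closure_le]
    rintro _ ⟨a, rfl⟩
    rcases a with _ | _ | _
    · exact subset_closure (Or.inl ⟨x0, m1⟩)
    · exact subset_closure (Or.inl ⟨y0, m2⟩)
    · exact subset_closure (Or.inr rfl)
  obtain ⟨b1, b2⟩ := j.card_le
  rw [top] at b1 b2
  haveI : Finite J4 := Finite.of_equiv _ topEquiv.toEquiv
  rw [card_top] at b2
  have T := tz1 h.t2 h.tc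
  have R : R7 (κ x0) (κ y0) := by
    obtain ⟨c1, c2, c3, c4, c5, c6, c7⟩ := r7_0
    exact ⟨by simpa using congrArg κ c1, by simpa using congrArg κ c2, by simpa using congrArg κ c3,
      by simpa using congrArg κ c4, by simpa using congrArg κ c5, by simpa using congrArg κ c6,
      by simpa using congrArg κ c7⟩
  let u : J4.Gen → G := fun a => match a with
    | .x => κ x0
    | .y => κ y0
    | .t => t
  let φ : J4 →* G := PresentedGroup.toGroup (f := u) (by
    rintro r (⟨x, hx, -⟩ | hr)
    · exact absurd hx (by simp [coxNodes, J4.edges])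
    · simp only [J4.extra, List.mem_cons, List.not_mem_nil, or_false, Set.mem_ofPred_eq] at hr
      rcases hr with rfl | rfl | rfl | rfl | rfl | rfl | rfl | rfl | rfl | rfl | rfl | rfl <;>
        simp only [map_mul, map_pow, map_inv, FreeGroup.lift_apply_of]
      · exact R.r1
      · exact R.r2
      · exact R.r3
      · exact R.r4
      · exact R.r5
      · exact R.r6
      · exact R.r7
      · rw [sq]; exact h.t2
      · have e : κ (cc x0 y0) = cc (κ x0) (κ y0) := by simp [cc]
        have := h.tc _ cc_stab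
        rw [e] at this
        exact cm.2 this
      · exact cm.2 (h.tc _ x0_stab)
      · exact T.rel11.trans h.r1
      · exact T.rel12.trans (by rw [h.r2, mul_inv_cancel]))
  have hs : Function.Surjective φ := by
    rw [← MonoidHom.range_eq_top, eq_top_iff, ← hg, closure_le]
    rintro _ (⟨g, rfl⟩ | rfl)
    · have : closure {x0, y0} ≤ φ.range.comap κ := by
        rw [closure_le]
        rintro _ (rfl | rfl)
        · exact ⟨X, PresentedGroup.toGroup.of _⟩
        · exact ⟨Y, PresentedGroup.toGroup.of _⟩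
      exact this (closure_xy ▸ mem_top g)
    · exact ⟨U, PresentedGroup.toGroup.of _⟩
  haveI : Finite G := Finite.of_surjective φ hs
  have hb : Function.Bijective φ := (Nat.bijective_iff_surjective_and_card φ).2
    ⟨hs, le_antisymm (hc ▸ b2) (Nat.card_le_card_of_surjective φ hs)⟩
  exact ⟨(MulEquiv.ofBijective φ hb).symm⟩

end Cfsg.Agent.JP
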