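import Cfsg.Agent.JP.DC
import Cfsg.Agent.JP.M

/-! # Letters indexed by trios and sextets -/

set_option autoImplicit false
set_option maxRecDepth 100000

namespace Cfsg.Agent.JP

open Cfsg.Agent.M24 MulAction
open scoped Pointwise

variable {P : Type*} [Group P]

open Classical in
/-- the conjugate of `t` belonging to a key -/
noncomputable def cjk {Y : Type*} [MulAction M24 Y] (κ : M24 →* P) (t : P) (y0 : Y) (ix : Y → ℕ)
    (k : ℕ) : P :=
  if h : ∃ g : M24, ix (g • y0) = k then κ h.choose * t * (κ h.choose)⁻¹ else 1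

theorem cjk_eq {Y : Type*} [MulAction M24 Y] {κ : M24 →* P} {t : P} {y0 : Y} {ix : Y → ℕ}
    {D : Set Y} {ap' : ℕ → ℕ → ℕ} (A : AC mcode D ix ap') (hy : y0 ∈ D)
    (hc : ∀ g ∈ stabilizer M24 y0, Commute (κ g) t) (g : M24) :
    cjk κ t y0 ix (ix (g • y0)) = κ g * t * (κ g)⁻¹ := by
  have h : ∃ g' : M24, ix (g' • y0) = ix (g • y0) := ⟨g, rfl⟩
  rw [cjk, dif_pos h]
  have e := A.inj (A.smul_mem _ hy) (A.smul_mem _ hy) h.choose_spec
  have := hc (g⁻¹ * h.choose) (by rw [mem_stabilizer_iff, mul_smul, e, inv_smul_smul])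
  have e2 : κ h.choose = κ g * κ (g⁻¹ * h.choose) := by simp
  rw [e2, mul_assoc (κ g), this.eq]; group

/-- the data -/
structure TZ (κ : M24 →* P) (t z : P) : Prop where
  t2 : t * t = 1
  tc : ∀ g ∈ stabilizer M24 T0, Commute (κ g) t
  z2 : z * z = 1
  zc : ∀ g ∈ stabilizer M24 S0, Commute (κ g) z

/-- the letters -/
noncomputable def lt (κ : M24 →* P) (t z : P) (k : ℕ) : P :=
  if k < 4096 then cjk κ z S0 skey k else cjk κ t T0 tkey k

/-- keys of trios -/
def VT (k : ℕ) : Prop := ∃ g : M24, tkey (g • T0) = k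
/-- keys of sextets -/
def VS (k : ℕ) : Prop := ∃ g : M24, skey (g • S0) = k
/-- keys -/
def Vl (k : ℕ) : Prop := VT k ∨ VS k

/-- action on keys -/
noncomputable def al (p k : ℕ) : ℕ := bif' (Nat.ble k (nat_lit 4095)) (apS p k) (apT p k)
/-- test for keys -/
noncomputable def vl (k : ℕ) : Bool := bor (tS.has k) (tT.has k)

theorem VT.ge {k : ℕ} (h : VT k) : 4096 ≤ k := by
  obtain ⟨g, rfl⟩ := h
  exact Nat.le_of_ble_eq_true (forall_trios (f := fun k => Nat.ble 4096 k) (by decide +kernel) _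
    (acT.smul_mem g T0_mem))

theorem VS.lt {k : ℕ} (h : VS k) : 0 < k ∧ k < 4096 := by
  obtain ⟨g, rfl⟩ := h
  have := forall_sextets (f := fun k => band (Nat.ble 1 k) (Nat.ble k 4095)) (by decide +kernel) _
    (acX.smul_mem g S0_mem)
  simp only [band_eq, Bool.and_eq_true, Nat.ble_eq] at this
  omega

theorem vt_of {T : Finset (Finset GolayPt)} (h : T ∈ trios) : VT (tkey T) := by
  obtain ⟨g, rfl⟩ := exists_smul_T0 h; exact ⟨g, rfl⟩

theorem vs_of {T : Finset (Finset GolayPt)} (h : T ∈ sextets) : VS (skey T) := by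
  obtain ⟨g, rfl⟩ := exists_smul_S0 h; exact ⟨g, rfl⟩

theorem vt_has {k : ℕ} (h : tT.has k = true) : VT k := by
  obtain ⟨x, hx, rfl⟩ := tT_sound.2.2.1 k (T.has_sound h); exact vt_of hx

theorem vs_has {k : ℕ} (h : tS.has k = true) : VS k := by
  obtain ⟨x, hx, rfl⟩ := tS_sound.2.2.1 k (T.has_sound h); exact vs_of hx

theorem vl_sound {k : ℕ} (h : vl k = true) : Vl k := by
  simp only [vl, bor_eq, Bool.or_eq_true] at h
  exact h.elim (fun h => Or.inr (vs_has h)) fun h => Or.inl (vt_has h)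

theorem al_T (g h : M24) : al (mcode g) (tkey (h • T0)) = tkey ((g * h) • T0) := by
  have : 4096 ≤ tkey (h • T0) := VT.ge ⟨h, rfl⟩
  rw [al, bif'_eq, if_neg (by rw [Nat.ble_eq]; show ¬ _ ≤ 4095; omega), acT.ap_code g (acT.smul_mem h T0_mem), mul_smul]

theorem al_S (g h : M24) : al (mcode g) (skey (h • S0)) = skey ((g * h) • S0) := by
  have := VS.lt ⟨h, rfl⟩
  rw [al, bif'_eq, if_pos (by rw [Nat.ble_eq]; show _ ≤ 4095; omega), acX.ap_code g (acX.smul_mem h S0_mem), mul_smul]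

theorem VT.al {k : ℕ} (h : VT k) (g : M24) : VT (al (mcode g) k) := by
  obtain ⟨h, rfl⟩ := h; exact ⟨_, (al_T g h).symm⟩

theorem VS.al {k : ℕ} (h : VS k) (g : M24) : VS (al (mcode g) k) := by
  obtain ⟨h, rfl⟩ := h; exact ⟨_, (al_S g h).symm⟩

theorem Vl.al {k : ℕ} (h : Vl k) (g : M24) : Vl (al (mcode g) k) :=
  h.imp (fun h => h.al g) fun h => h.al g

theorem Vl.nz {k : ℕ} (h : Vl k) : k ≠ 0 := by
  rcases h with h | h
  · have := h.ge; omega
  · have := h.lt; omega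

variable {κ : M24 →* P} {t z : P}

theorem lt_T' (tc : ∀ g ∈ stabilizer M24 T0, Commute (κ g) t) (g : M24) :
    lt κ t z (tkey (g • T0)) = κ g * t * (κ g)⁻¹ := by
  have : 4096 ≤ tkey (g • T0) := VT.ge ⟨g, rfl⟩
  rw [lt, if_neg (by omega), cjk_eq acT T0_mem tc]

theorem TZ.lt_T (h : TZ κ t z) (g : M24) : lt κ t z (tkey (g • T0)) = κ g * t * (κ g)⁻¹ :=
  lt_T' h.tc g

theorem TZ.lt_S (h : TZ κ t z) (g : M24) : lt κ t z (skey (g • S0)) = κ g * z * (κ g)⁻¹ := by
  have := VS.lt ⟨g, rfl⟩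
  rw [lt, if_pos this.2, cjk_eq acX S0_mem h.zc]

theorem lt_z {z' : P} {k : ℕ} (h : 4096 ≤ k) : lt κ t z k = lt κ t z' k := by
  rw [lt, lt, if_neg (by omega), if_neg (by omega)]

theorem TZ.lt_T0 (h : TZ κ t z) : lt κ t z 143212179398400 = t := by
  have := h.lt_T 1
  rwa [one_smul, tkey_T0, map_one, inv_one, one_mul, mul_one] at this

theorem TZ.lt_S0 (h : TZ κ t z) : lt κ t z 3489 = z := by
  have := h.lt_S 1
  rwa [one_smul, skey_S0, map_one, inv_one, one_mul, mul_one] at this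

theorem TZ.conj (h : TZ κ t z) (g : M24) {k : ℕ} (hk : Vl k) :
    κ g * lt κ t z k * (κ g)⁻¹ = lt κ t z (al (mcode g) k) := by
  rcases hk with ⟨u, rfl⟩ | ⟨u, rfl⟩
  · rw [al_T, h.lt_T, h.lt_T, map_mul]; group
  · rw [al_S, h.lt_S, h.lt_S, map_mul]; group

theorem TZ.sq (h : TZ κ t z) {k : ℕ} (hk : Vl k) : lt κ t z k * lt κ t z k = 1 := by
  rcases hk with ⟨u, rfl⟩ | ⟨u, rfl⟩
  · rw [h.lt_T, conj_mul, h.t2]; simp
  · rw [h.lt_S, conj_mul, h.z2]; simp

theorem vt0 : VT 143212179398400 := ⟨1, by rw [one_smul, tkey_T0]⟩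
theorem vs0 : VS 3489 := ⟨1, by rw [one_smul, skey_S0]⟩

/-- product of the letters, last letter leftmost -/
noncomputable def pw (κ : M24 →* P) (t z : P) : List ℕ → P
  | [] => 1
  | a :: w => pw κ t z w * lt κ t z a

/-- one-sided operations -/
noncomputable def O1 : Ops := ⟨mul, inv, one, al, isM24, vl⟩

theorem TZ.sys1 (h : TZ κ t z) (X : Type*) [MulAction P X] :
    letI := MulAction.compHom X κ
    Sys O1 mcode Vl fun k (x : X) => lt κ t z k • x :=
  letI := MulAction.compHom X κ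
  { gc := gcM
    vg := fun _ h => exists_mcode h
    vl := fun _ h => vl_sound h
    nz := fun _ h => h.nz
    cl := fun g _ h => h.al g
    eqv := fun g k x hk => by
      show κ g • lt κ t z k • x = lt κ t z (al (mcode g) k) • κ g • x
      rw [← h.conj g hk]; simp [mul_smul]
    sq := fun k x hk => by rw [smul_smul, h.sq hk, one_smul] }

theorem lw_pw {X : Type*} [MulAction P X] : ∀ (w : List ℕ) (x : X),
    lw (fun k (x : X) => lt κ t z k • x) w x = pw κ t z w • x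
  | [], x => by simp [lw, pw]
  | a :: w, x => by rw [lw, lw_pw w, pw, mul_smul]

theorem rh1 {X : Type*} [MulAction P X] {w : List ℕ} {ρ : M24} {c : ℕ} (hc : mcode ρ = c)
    (hw : lall w vl = true) (h : pw κ t z w = κ ρ) :
    letI := MulAction.compHom X κ
    RH mcode Vl (fun k (x : X) => lt κ t z k • x) (w, c) :=
  ⟨ρ, hc, fun a ha => vl_sound ((lall_iff _ _).1 hw a ha), fun y => by rw [lw_pw, h]; rfl⟩

/-! ### two-sided -/

theorem mcode_lt (g : M24) : mcode g < 2 ^ 120 := by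
  refine Nat.lt_pow_two_of_testBit _ fun i hi => ?_
  by_contra hh
  have h : (mcode g).testBit i = true := by simpa using hh
  obtain ⟨j, hj, e⟩ := (testBit_orAll 24 (fun j => Nat.shiftLeft (idx ((g : Equiv.Perm GolayPt) (pt j)))
    (Nat.mul 5 j)) i).1 h
  have e' : (idx ((g : Equiv.Perm GolayPt) (pt j)) <<< (5 * j)).testBit i = true := e
  rw [Nat.testBit_shiftLeft, Bool.and_eq_true, decide_eq_true_iff] at e'
  have h2 := idx_lt ((g : Equiv.Perm GolayPt) (pt j))
  rw [Nat.testBit_lt_two_pow (lt_of_lt_of_le (show _ < 2 ^ 5 by omega)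
    (Nat.pow_le_pow_right (by norm_num) (by omega)))] at e'
  exact absurd e'.2 (by simp)

/-- first component -/
def lo (p : ℕ) : ℕ := Nat.land p (nat_lit 0xffffffffffffffffffffffffffffff)
/-- second component -/
def hi (p : ℕ) : ℕ := Nat.shiftRight p (nat_lit 120)
/-- pairing -/
def pr (a b : ℕ) : ℕ := Nat.add a (Nat.shiftLeft b (nat_lit 120))
/-- code of a pair -/
noncomputable def code2 (g : M24 × M24) : ℕ := pr (mcode g.1) (mcode g.2)

theorem lo_pr {a : ℕ} (h : a < 2 ^ 120) (b : ℕ) : lo (pr a b) = a := by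
  show (a + b <<< 120) &&& (2 ^ 120 - 1) = a
  rw [Nat.and_two_pow_sub_one_eq_mod, Nat.shiftLeft_eq]; omega

theorem hi_pr {a : ℕ} (h : a < 2 ^ 120) (b : ℕ) : hi (pr a b) = b := by
  show (a + b <<< 120) >>> 120 = b
  rw [Nat.shiftRight_eq_div_pow, Nat.shiftLeft_eq]; omega

theorem pr_lo_hi (c : ℕ) : pr (lo c) (hi c) = c := by
  show (c &&& (2 ^ 120 - 1)) + (c >>> 120) <<< 120 = c
  rw [Nat.and_two_pow_sub_one_eq_mod, Nat.shiftRight_eq_div_pow, Nat.shiftLeft_eq]; omega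

theorem lo_code (g : M24 × M24) : lo (code2 g) = mcode g.1 := lo_pr (mcode_lt _) _
theorem hi_code (g : M24 × M24) : hi (code2 g) = mcode g.2 := hi_pr (mcode_lt _) _

/-- two-sided operations -/
noncomputable def O2 : Ops :=
  ⟨fun p q => force (lo p) fun a => force (lo q) fun b => force (hi p) fun c => force (hi q) fun d =>
      pr (mul a b) (mul c d),
    fun p => force (lo p) fun a => force (hi p) fun c => pr (inv a) (inv c),
    nat_lit 0xbdab49ca307b9ac5a928398a418820bdab49ca307b9ac5a928398a418820,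
    fun p k => force (lo p) fun a => al a k,
    fun p => band (force (lo p) isM24) (force (hi p) isM24), vl⟩

theorem one2 : O2.one = pr one one := by decide +kernel

theorem gc2 : GC code2 O2.mul O2.inv O2.one where
  inj g h e := Prod.ext (gcM.inj (by rw [← lo_code, e, lo_code]))
    (gcM.inj (by rw [← hi_code, e, hi_code]))
  code_mul g h := by
    simp only [O2, force_eq, lo_code, hi_code, ← gcM.code_mul]; rfl
  code_inv g := by
    simp only [O2, force_eq, lo_code, hi_code, ← gcM.code_inv]; rfl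
  code_one := by rw [one2, ← gcM.code_one]; rfl

/-- the two-sided action -/
@[reducible] def act2 (κ : M24 →* P) : MulAction (M24 × M24) P where
  smul g x := κ g.1 * x * (κ g.2)⁻¹
  one_smul x := by show κ 1 * x * (κ 1)⁻¹ = x; simp
  mul_smul g h x := by
    show κ (g.1 * h.1) * x * (κ (g.2 * h.2))⁻¹ = κ g.1 * (κ h.1 * x * (κ h.2)⁻¹) * (κ g.2)⁻¹
    simp [mul_assoc]

theorem TZ.sys2 (h : TZ κ t z) :
    letI := act2 κ
    Sys O2 code2 Vl fun k (x : P) => lt κ t z k • x :=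
  letI := act2 κ
  { gc := gc2
    vg := fun c h => by
      simp only [O2, band_eq, force_eq, Bool.and_eq_true] at h
      obtain ⟨a, ha⟩ := exists_mcode h.1
      obtain ⟨b, hb⟩ := exists_mcode h.2
      exact ⟨(a, b), by rw [code2, ha, hb, pr_lo_hi]⟩
    vl := fun _ h => vl_sound h
    nz := fun _ h => h.nz
    cl := fun g _ h => by simp only [O2, force_eq, lo_code]; exact h.al g.1
    eqv := fun g k x hk => by
      simp only [O2, force_eq, lo_code]
      show κ g.1 * (lt κ t z k * x) * (κ g.2)⁻¹ = lt κ t z (al (mcode g.1) k) * (κ g.1 * x * (κ g.2)⁻¹)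
      rw [← h.conj g.1 hk]; group
    sq := fun k x hk => by rw [smul_smul, h.sq hk, one_smul] }

theorem rh2 {w : List ℕ} {ρ : M24} {c : ℕ} (hc : pr (mcode ρ) one = c)
    (hw : lall w vl = true) (h : pw κ t z w = κ ρ) :
    letI := act2 κ
    RH code2 Vl (fun k (x : P) => lt κ t z k • x) (w, c) :=
  ⟨(ρ, 1), by rw [code2, gcM.code_one]; exact hc,
    fun a ha => vl_sound ((lall_iff _ _).1 hw a ha), fun y => by
      rw [lw_pw, h]
      show κ ρ * y = κ ρ * y * (κ 1)⁻¹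
      simp⟩

/-- axioms of the two-sided enumeration -/
noncomputable def ax2 (L s : ℕ) : Bool :=
  band (band (Nat.beq L (nat_lit 0)) (Nat.beq (lo s) (hi s))) (force (lo s) isM24)

/-- A checked two-sided enumeration. -/
structure Cert2 (B : List (List ℕ × ℕ)) (w : List ℕ) (c : ℕ) : Prop where
  out : ∃ (fa fb dt : ℕ → ℕ) (R : List (List ℕ × ℕ)) (N n mv : ℕ),
    rchk O2 R (([], O2.one) :: ([143212179398400, 143212179398400], O2.one) ::
      ([3489, 3489], O2.one) :: B) = true ∧ (∀ id, chkF O2 fa fb dt ax2 R N id = true) ∧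
    wchk O2 fa N n mv w (fun π => Nat.beq (lo π) (force (hi π) (mul c))) = true

theorem Cert2.sound (h : TZ κ t z) {B : List (List ℕ × ℕ)} {w : List ℕ} {ρ : M24} {c : ℕ}
    (hc : mcode ρ = c) (C : Cert2 B w c)
    (hB : letI := act2 κ; ∀ x ∈ B, RH code2 Vl (fun k (x : P) => lt κ t z k • x) x) :
    pw κ t z w = κ ρ := by
  letI := act2 κ
  obtain ⟨fa, fb, dt, R, N, n, mv, h1, h2, h3⟩ := C.out
  have S := h.sys2
  have hR := rchk_sound S h1 (by
    intro x hx
    simp only [List.mem_cons] at hx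
    rcases hx with rfl | rfl | rfl | hx
    · exact RH.nil S
    · exact RH.sq S (Or.inl vt0)
    · exact RH.sq S (Or.inr vs0)
    · exact hB x hx)
  have H := facts_sound S (x0 := (1 : P)) (by
    intro L s hs
    simp only [ax2, band_eq, force_eq, Bool.and_eq_true, Nat.beq_eq] at hs
    obtain ⟨⟨a1, a2⟩, a3⟩ := hs
    obtain ⟨g, hg⟩ := exists_mcode a3
    have a1' : L = 0 := a1
    refine ⟨(g, g), by rw [code2, hg]; nth_rewrite 2 [a2]; exact pr_lo_hi s, fun h => absurd a1' h, ?_⟩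
    rw [lz, if_pos a1']
    show 1 = κ g * 1 * (κ g)⁻¹
    simp) hR h2
  obtain ⟨π, a1, a2⟩ := wchk_sound S H h3
  simp only [force_eq, lo_code, hi_code, ← hc, ← gcM.code_mul, Nat.beq_eq] at a1
  rw [lw_pw] at a2
  have a3 : pw κ t z w * 1 = κ π.1 * 1 * (κ π.2)⁻¹ := a2
  rw [gcM.inj a1] at a3
  simpa using a3

/-! ### one-sided -/

/-- axioms of the one-sided enumeration -/
noncomputable def ax1 (u L s : ℕ) : Bool :=
  bor (band (Nat.beq L (nat_lit 0)) (isM24 s)) (band (Nat.beq L u) (Nat.beq s one))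

theorem facts1 (h : TZ κ t z) {H : Subgroup P} (hK : ∀ g, κ g ∈ H) {u : ℕ}
    (hu : u = 0 ∨ (u = 3489 ∧ z ∈ H)) {B R : List (List ℕ × ℕ)} {fa fb dt : ℕ → ℕ} {N : ℕ}
    (h1 : rchk O1 R (([], one) :: ([143212179398400, 143212179398400], one) ::
      ([3489, 3489], one) :: B) = true) (h2 : ∀ id, chkF O1 fa fb dt (ax1 u) R N id = true)
    (hB : letI := MulAction.compHom (P ⧸ H) κ
      ∀ x ∈ B, RH mcode Vl (fun k (x : P ⧸ H) => lt κ t z k • x) x) :
    letI := MulAction.compHom (P ⧸ H) κ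
    ∀ j < N, FH mcode Vl (fun k (x : P ⧸ H) => lt κ t z k • x)
      (pts (fun k (x : P ⧸ H) => lt κ t z k • x) dt ((1 : P) : P ⧸ H)) (fa j) := by
  letI := MulAction.compHom (P ⧸ H) κ
  have S := h.sys1 (P ⧸ H)
  have fx : ∀ a ∈ H, a • ((1 : P) : P ⧸ H) = ((1 : P) : P ⧸ H) := fun a ha => by
    show ((a * 1 : P) : P ⧸ H) = ((1 : P) : P ⧸ H)
    rw [QuotientGroup.eq]; simpa using ha
  have hR := rchk_sound S h1 (by
    intro x hx
    simp only [List.mem_cons] at hx
    rcases hx with rfl | rfl | rfl | hx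
    · exact RH.nil S
    · exact RH.sq S (Or.inl vt0)
    · exact RH.sq S (Or.inr vs0)
    · exact hB x hx)
  refine facts_sound S ?_ hR h2
  intro L s hs
  simp only [ax1, band_eq, bor_eq, Bool.and_eq_true, Bool.or_eq_true, Nat.beq_eq] at hs
  rcases hs with ⟨a1, a2⟩ | ⟨rfl, rfl⟩
  · obtain ⟨g, hg⟩ := exists_mcode a2
    have a1' : L = 0 := a1
    exact ⟨g, hg, fun h => absurd a1' h, by rw [lz, if_pos a1']; exact (fx _ (hK g)).symm⟩
  · rcases hu with rfl | ⟨rfl, hz⟩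
    · exact ⟨1, gcM.code_one, fun h => absurd rfl h, by simp [lz]⟩
    · refine ⟨1, gcM.code_one, fun _ => Or.inr vs0, ?_⟩
      rw [lz, if_neg (by decide), h.lt_S0, one_smul]; exact fx _ hz

theorem cov_T {ms : ℕ → ℕ} (h : (tT.all fun k a _ => force (Nat.shiftRight a (nat_lit 4)) fun r =>
    band (Nat.ble r (nat_lit 3794)) (Nat.beq (ms r) k)) = true) : ∀ k, VT k → ∃ r < 3795, ms r = k := by
  rintro _ ⟨g, rfl⟩
  have : g • T0 ∈ orbit M24 T0 := ⟨g, rfl⟩
  rw [tT_sound.1] at this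
  obtain ⟨a, b, hm⟩ := T.mem_keys.1 this.2
  have := (T.all_iff _ _).1 h _ _ _ hm
  simp only [force_eq, band_eq, Bool.and_eq_true, Nat.ble_eq, Nat.beq_eq] at this
  exact ⟨_, Nat.lt_succ_of_le this.1, this.2⟩

theorem cov_S {ms : ℕ → ℕ} (h : (tS.all fun k a _ => force (Nat.shiftRight a (nat_lit 4)) fun r =>
    band (Nat.ble r (nat_lit 1770)) (Nat.beq (ms r) k)) = true) : ∀ k, VS k → ∃ r < 1771, ms r = k := by
  rintro _ ⟨g, rfl⟩
  have : g • S0 ∈ orbit M24 S0 := ⟨g, rfl⟩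
  rw [tS_sound.1] at this
  obtain ⟨a, b, hm⟩ := T.mem_keys.1 this.2
  have := (T.all_iff _ _).1 h _ _ _ hm
  simp only [force_eq, band_eq, Bool.and_eq_true, Nat.ble_eq, Nat.beq_eq] at this
  exact ⟨_, Nat.lt_succ_of_le this.1, this.2⟩

theorem blocks {f : ℕ → Bool} {d M : ℕ} (hM : ∀ c, M ≤ c → f c = true) (n : ℕ)
    (hn : M ≤ n * 2 ^ d) (h : ∀ j < n, ball f d j = true) : ∀ c, f c = true :=
  TC.rows_of_blocks hM n hn h

theorem chkF_of_le {O : Ops} {fa fb dt : ℕ → ℕ} {ax : ℕ → ℕ → Bool} {R : List (List ℕ × ℕ)}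
    {N : ℕ} (c : ℕ) (h : N ≤ c) : chkF O fa fb dt ax R N c = true := by simp [chkF, h]

theorem chkE_all {O : Ops} {fa : ℕ → ℕ} {N nd d : ℕ} {gens : List ℕ} {ms fo : ℕ → ℕ} {M : ℕ}
    (hM : M ≤ 4096) (h : ball (chkE O fa N nd d gens ms fo M) 12 0 = true) (r : ℕ) :
    chkE O fa N nd d gens ms fo M r = true := by
  by_cases c : M ≤ r
  · simp [chkE, c]
  · exact ball_zero h r (by omega)

/-- a finite set of cosets closed under generators bounds the index -/
theorem card_bound {H L : Subgroup P} [Finite H] {S : Set P} (hL : L ≤ Subgroup.closure S)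
    {Y : Set (P ⧸ H)} (hY : Y.Finite) {n : ℕ} (hn : Y.ncard ≤ n) (h1 : ((1 : P) : P ⧸ H) ∈ Y)
    (hS : ∀ s ∈ S, ∀ x ∈ Y, s • x ∈ Y) : Finite L ∧ Nat.card L ≤ n * Nat.card H := by
  have key : ∀ g ∈ L, ((g : P) : P ⧸ H) ∈ Y := fun g hg => by
    have := closure_smul_mem hY hS g (hL hg) _ h1
    simpa using this
  haveI := hY.to_subtype
  let f : L → Y × H := fun g => (⟨(g : P), key _ g.2⟩,
    ⟨(((g : P) : P ⧸ H).out)⁻¹ * g, QuotientGroup.eq.1 (QuotientGroup.out_eq' _)⟩)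
  have hf : Function.Injective f := by
    intro a b e
    have e1 : ((a : P) : P ⧸ H) = ((b : P) : P ⧸ H) := congrArg (fun y : Y × H => y.1.1) e
    have e2 : (((a : P) : P ⧸ H).out)⁻¹ * a = (((b : P) : P ⧸ H).out)⁻¹ * b :=
      congrArg (fun y : Y × H => y.2.1) e
    rw [e1] at e2
    exact Subtype.ext (mul_left_cancel e2)
  refine ⟨Finite.of_injective f hf, (Nat.card_le_card_of_injective f hf).trans ?_⟩
  rw [Nat.card_prod]
  exact Nat.mul_le_mul_right _ hn

end Cfsg.Agent.JP
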